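import Cfsg.Agent.Lib.H04.Aut.Main
import Cfsg.Prelude.Def_KGroupFacts

/-!
# Counting the outer automorphisms
-/

set_option autoImplicit false
set_option linter.style.longLine false
set_option linter.unusedSimpArgs false
set_option linter.unusedSectionVars false
set_option linter.unusedVariables false

open Cfsg.Lie Cfsg.Agent.H04.Chev

namespace Cfsg.Agent.H04.AutT

variable {D : ChevalleyDatum} {T : Tabs} {U : Tabs3}

/-- the group of standard automorphisms -/
def stdG (D : ChevalleyDatum) (F : Type*) [Field F] : Subgroup (MulAut ↥(D.group F)) where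
  carrier := {θ | Std θ}
  mul_mem' := by
    intro a b ha hb
    exact ⟨fun g => (ha.pos (b g)).trans (hb.pos g), fun g => (ha.neg (b g)).trans (hb.neg g)⟩
  one_mem' := ⟨fun g => Iff.rfl, fun g => Iff.rfl⟩
  inv_mem' := by
    intro a ha
    exact Std.symm ha

lemma mem_stdG {F : Type*} [Field F] {θ : MulAut ↥(D.group F)} : θ ∈ stdG D F ↔ Std θ := Iff.rfl

section Abstract
variable {G : Type*} [Group G]

lemma card_out_mul {S : Subgroup (MulAut G)} (h : S ⊔ Cfsg.Inn G = ⊤) :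
    Nat.card (Cfsg.Out G) * Nat.card ↥((Cfsg.Inn G).subgroupOf S) = Nat.card ↥S := by
  have h1 : (Cfsg.Inn G).relIndex (S ⊔ Cfsg.Inn G) = (Cfsg.Inn G).relIndex S := Subgroup.relIndex_sup_right _ _
  rw [h, Subgroup.relIndex_top_right] at h1
  have h2 := Subgroup.card_mul_index ((Cfsg.Inn G).subgroupOf S)
  have h3 : Nat.card (Cfsg.Out G) = (Cfsg.Inn G).index := rfl
  rw [h3, h1, mul_comm]
  exact h2

end Abstract

section
variable (C : Checks D T) (C2 : Checks2 D T) (C3 : Checks3 D T U)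
variable {F : Type*} [Field F]

include C C2 C3 in
theorem stdG_sup [Finite F] (hD : D ∈ [chevG2, chevB2, chevD4, chevF4, chevE6, chevE7, chevE8]) : stdG D F ⊔ Cfsg.Inn ↥(D.group F) = ⊤ := by
  classical
  haveI := Fintype.ofFinite F
  obtain ⟨p, hp⟩ := CharP.exists F
  haveI hpp : Fact p.Prime := ⟨(CharP.char_is_prime_or_zero F p).resolve_right (fun h0 => by
    subst h0
    exact CharP.char_ne_zero_of_finite F 0 rfl)⟩
  obtain ⟨P, hP⟩ := exists_sylow_U (F := F) p D hD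
  rw [eq_top_iff]
  intro θ _
  obtain ⟨x, θ₂, hθ, hstd⟩ := exists_std C C2 C3 p P hP θ
  have e : θ = MulAut.conj x * θ₂ := by
    apply MulEquiv.ext
    intro y
    rw [hθ]
    simp [MulAut.mul_apply, MulAut.conj_apply]
  rw [e]
  exact mul_mem (Subgroup.mem_sup_right ⟨x, rfl⟩) (Subgroup.mem_sup_left hstd)

/-- from conjugation on the group to the normaliser -/
lemma normal_of_group {M : Subgroup (GL D.Idx F)} (hM : M ≤ D.group F) {g : ↥(D.group F)}
    (h : ∀ y : ↥(D.group F), g.1 * y.1 * (g.1)⁻¹ ∈ M ↔ y.1 ∈ M) : g.1 ∈ Subgroup.normalizer (M : Set (GL D.Idx F)) := by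
  rw [Subgroup.mem_normalizer_iff]
  intro x
  by_cases hx : x ∈ D.group F
  · exact (h ⟨x, hx⟩).symm
  · have h1 : x ∉ M := fun h2 => hx (hM h2)
    have h2 : g.1 * x * (g.1)⁻¹ ∉ M := by
      intro h3
      apply hx
      have h4 := hM h3
      have e : x = (g.1)⁻¹ * (g.1 * x * (g.1)⁻¹) * g.1 := by group
      rw [e]
      exact mul_mem (mul_mem (inv_mem g.2) h4) g.2
    simp [h1, h2]

include C C2 C3 in
theorem conj_std_iff (g : ↥(D.group F)) : Std (MulAut.conj g) ↔ g.1 ∈ D.diagonalSubgroup F := by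
  have hUG : D.posUnipotent F ≤ D.group F := U_le_group C
  have hVG : D.negUnipotent F ≤ D.group F := V_le_group C C2
  constructor
  · intro h
    have h1 : g.1 ∈ Subgroup.normalizer (D.posUnipotent F : Set (GL D.Idx F)) := normal_of_group hUG (fun y => by
      have := h.pos y
      simpa [MulAut.conj_apply] using this)
    have h2 : g.1 ∈ Subgroup.normalizer (D.negUnipotent F : Set (GL D.Idx F)) := normal_of_group hVG (fun y => by
      have := h.neg y
      simpa [MulAut.conj_apply] using this)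
    have hgB := mem_B_of_normal C C2 C3 h1
    obtain ⟨N, d, hNm, hU, hV, -⟩ := w0_maps (F := F) C C2 C3
    have h3 : (N * g * N⁻¹).1 ∈ Subgroup.normalizer (D.posUnipotent F : Set (GL D.Idx F)) := by
      apply normal_of_group hUG
      intro y
      have e0 : ((N * g * N⁻¹).1 * y.1 * ((N * g * N⁻¹).1)⁻¹) = N.1 * (g.1 * ((N.1)⁻¹ * y.1 * N.1) * (g.1)⁻¹) * (N.1)⁻¹ := by
        show (N.1 * g.1 * (N.1)⁻¹) * y.1 * (N.1 * g.1 * (N.1)⁻¹)⁻¹ = _
        group
      rw [e0, ← hV, ← (Subgroup.mem_normalizer_iff.mp h2 _), hV]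
      have e1 : N.1 * ((N.1)⁻¹ * y.1 * N.1) * (N.1)⁻¹ = y.1 := by group
      rw [e1]
    have h4 := mem_B_of_normal C C2 C3 h3
    obtain ⟨u, hu, k, hk, e⟩ := (mem_borel_iff C C2 C3).mp h4
    have e2 : g.1 = ((N.1)⁻¹ * u * N.1) * ((N.1)⁻¹ * k * N.1) := by
      have e3 : N.1 * g.1 * (N.1)⁻¹ = u * k := e
      have e4 : g.1 = (N.1)⁻¹ * (N.1 * g.1 * (N.1)⁻¹) * N.1 := by group
      rw [e4, e3]
      group
    have hv : (N.1)⁻¹ * u * N.1 ∈ D.negUnipotent F := by
      rw [hV]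
      have e1 : N.1 * ((N.1)⁻¹ * u * N.1) * (N.1)⁻¹ = u := by group
      rw [e1]
      exact hu
    have hk' : (N.1)⁻¹ * k * N.1 ∈ D.diagonalSubgroup F := by
      have := N_conj_H C C3 (inv_mem hNm) hk
      simpa using this
    have hvB : (N.1)⁻¹ * u * N.1 ∈ D.borelSubgroup F := by
      have e5 : (N.1)⁻¹ * u * N.1 = g.1 * ((N.1)⁻¹ * k * N.1)⁻¹ := by
        rw [e2]
        group
      rw [e5]
      exact mul_mem hgB (inv_mem (H_le_B hk'))
    have h5 : (N.1)⁻¹ * u * N.1 ∈ D.borelSubgroup F ⊓ D.negUnipotent F := ⟨hvB, hv⟩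
    rw [borel_inf_neg C C2 C3] at h5
    have h6 : (N.1)⁻¹ * u * N.1 = 1 := h5
    rw [e2, h6, one_mul]
    exact hk'
  · intro hg
    constructor
    · intro y
      have := Subgroup.mem_normalizer_iff.mp (H_le_normalizer_pos C C2 C3 hg) y.1
      simpa [MulAut.conj_apply] using this.symm
    · intro y
      have := Subgroup.mem_normalizer_iff.mp (H_le_normalizer_neg C C2 C3 hg) y.1
      simpa [MulAut.conj_apply] using this.symm

/-- root element in the group -/
def XE (C : Checks D T) {r : ℕ} (hr : r < D.nroots) (t : F) : ↥(D.group F) := ⟨xG C r t, xG_mem_group C hr t⟩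

include C C2 C3 in
theorem conj_H_inj {g : ↥(D.group F)} (hg : g.1 ∈ D.diagonalSubgroup F) (h : MulAut.conj g = 1) : g = 1 := by
  have hg' := hg
  rw [diagonal_eq C C3] at hg'
  obtain ⟨c, hc⟩ := mem_HT.mp hg'
  have key : ∀ s, s < D.nroots → tv U D (capply D c) s = 1 := by
    intro s hs
    have e1 := congrArg (fun φ : MulAut ↥(D.group F) => (φ (XE C hs (1 : F))).1) h
    simp only [MulAut.conj_apply, MulAut.one_apply] at e1
    have e2 : g.1 * xG C s (1 : F) * (g.1)⁻¹ = xG C s 1 := e1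
    rw [hc] at e2
    unfold hProd at e2
    rw [torusG_conj C C3 hs, mul_one] at e2
    have e3 := Tf.xG_param_inj C C2 hs e2
    exact Units.ext e3
  have e4 := eq_one_of_tv C3 key
  apply Subtype.ext
  show g.1 = 1
  rw [hc]
  exact e4

include C C2 C3 in
/-- the intersection with the inner automorphisms -/
theorem card_inn_std : Nat.card ↥((Cfsg.Inn ↥(D.group F)).subgroupOf (stdG D F)) = Nat.card ↥(D.diagonalSubgroup F) := by
  have hHG : D.diagonalSubgroup F ≤ D.group F := H_le_group C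
  let φ : ↥(D.diagonalSubgroup F) → ↥((Cfsg.Inn ↥(D.group F)).subgroupOf (stdG D F)) := fun h =>
    ⟨⟨MulAut.conj (⟨h.1, hHG h.2⟩ : ↥(D.group F)), (conj_std_iff C C2 C3 _).mpr h.2⟩, ⟨_, rfl⟩⟩
  have hinj : Function.Injective φ := by
    intro a b e
    have e1 : MulAut.conj (⟨a.1, hHG a.2⟩ : ↥(D.group F)) = MulAut.conj (⟨b.1, hHG b.2⟩ : ↥(D.group F)) := congrArg (fun z => z.1.1) e
    have e2 : MulAut.conj ((⟨a.1, hHG a.2⟩ : ↥(D.group F)) * (⟨b.1, hHG b.2⟩ : ↥(D.group F))⁻¹) = 1 := by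
      rw [map_mul, map_inv, e1, mul_inv_cancel]
    have e3 := conj_H_inj C C2 C3 (g := (⟨a.1, hHG a.2⟩ : ↥(D.group F)) * (⟨b.1, hHG b.2⟩ : ↥(D.group F))⁻¹) (mul_mem a.2 (inv_mem b.2)) e2
    have e4 := mul_inv_eq_one.mp e3
    have e5 : a.1 = b.1 := congrArg (fun z : ↥(D.group F) => z.1) e4
    exact Subtype.ext e5
  have hsur : Function.Surjective φ := by
    rintro ⟨⟨θ, hθ⟩, ⟨x, hx⟩⟩
    have hx' : MulAut.conj x = θ := hx
    subst hx'
    refine ⟨⟨x.1, (conj_std_iff C C2 C3 x).mp hθ⟩, ?_⟩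
    rfl
  exact (Nat.card_congr (Equiv.ofBijective φ ⟨hinj, hsur⟩)).symm

/-- a criterion for standard automorphisms -/
lemma fw (θ : ↥(D.group F) ≃* ↥(D.group F)) (R : ℕ → Prop)
    (h : ∀ (r : ℕ) (hr : r < D.nroots) (t : F), R r → (θ (XE C hr t)).1 ∈ RS C R F) (g : ↥(D.group F)) (hg : g.1 ∈ RS C R F) :
    (θ g).1 ∈ RS C R F := by
  let K : Subgroup (GL D.Idx F) := (((RS C R F).subgroupOf (D.group F)).comap θ.toMonoidHom).map (D.group F).subtype
  have hK : RS C R F ≤ K := by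
    unfold RS
    rw [Subgroup.closure_le]
    rintro x ⟨r, t, hr, hR, rfl⟩
    exact ⟨XE C hr t, h r hr t hR, rfl⟩
  obtain ⟨g', hg', e⟩ := hK hg
  have e2 : g' = g := Subtype.ext e
  subst e2
  exact hg'

include C in
lemma std_of_action (θ : ↥(D.group F) ≃* ↥(D.group F))
    (h1 : ∀ (r : ℕ) (hr : r < D.nroots) (t : F), ∃ s, θ (XE C hr t) = XE C hr s)
    (h2 : ∀ (r : ℕ) (hr : r < D.nroots) (t : F), ∃ s, θ.symm (XE C hr t) = XE C hr s) : Std θ := by
  have key : ∀ (θ : ↥(D.group F) ≃* ↥(D.group F)) (R : ℕ → Prop), (∀ (r : ℕ) (hr : r < D.nroots) (t : F), ∃ s, θ (XE C hr t) = XE C hr s) →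
      ∀ g : ↥(D.group F), g.1 ∈ RS C R F → (θ g).1 ∈ RS C R F := by
    intro θ R h g hg
    apply fw C θ R _ g hg
    intro r hr t hR
    obtain ⟨s, hs⟩ := h r hr t
    rw [hs]
    exact Subgroup.subset_closure ⟨r, s, hr, hR, rfl⟩
  constructor
  · intro g
    rw [pos_eq_RS C]
    constructor
    · intro h
      have := key θ.symm _ h2 (θ g) h
      simpa using this
    · exact key θ _ h1 g
  · intro g
    rw [neg_eq_RS C]
    constructor
    · intro h
      have := key θ.symm _ h2 (θ g) h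
      simpa using this
    · exact key θ _ h1 g

/-- field automorphism -/
noncomputable def fA (C : Checks D T) (τ : F ≃+* F) : ↥(D.group F) ≃* ↥(D.group F) := Classical.choose (S1080_gen (F := F) C τ)

lemma fA_x (τ : F ≃+* F) {r : ℕ} (hr : r < D.nroots) (t : F) : fA C τ (XE C hr t) = XE C hr (τ t) := by
  have h := Classical.choose_spec (S1080_gen (F := F) C τ) (XE C hr t) r t hr (xG_val C _ _)
  apply Subtype.ext
  apply Units.ext
  show (((fA C τ (XE C hr t)).1 : GL D.Idx F) : Matrix D.Idx D.Idx F) = _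
  refine h.trans ?_
  exact (xG_val C _ _).symm

lemma fA_symm_x (τ : F ≃+* F) {r : ℕ} (hr : r < D.nroots) (t : F) : (fA C τ).symm (XE C hr t) = XE C hr (τ.symm t) := by
  rw [MulEquiv.symm_apply_eq, fA_x]
  simp

include C in
lemma fA_std (τ : F ≃+* F) : Std (fA C τ) :=
  std_of_action C _ (fun r hr t => ⟨_, fA_x C τ hr t⟩) (fun r hr t => ⟨_, fA_symm_x C τ hr t⟩)

/-- extension by one -/
noncomputable def extF (D : ChevalleyDatum) {F : Type*} [Field F] (ψ : Fin D.rank → Fˣ) : ℕ → Fˣ := fun j => if h : j < D.rank then ψ ⟨j, h⟩ else 1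

/-- diagonal automorphism -/
noncomputable def dA (C : Checks D T) (C3 : Checks3 D T U) (ψ : Fin D.rank → Fˣ) : ↥(D.group F) ≃* ↥(D.group F) :=
  diagE C C3 (fun i => tv U D (extF D ψ) (D.simple i))

lemma dA_x (ψ : Fin D.rank → Fˣ) {r : ℕ} (hr : r < D.nroots) (t : F) :
    dA C C3 ψ (XE C hr t) = XE C hr ((tv U D (extF D ψ) r : Fˣ) * t) :=
  Subtype.ext (diagE_apply C C3 (extF D ψ) hr t _ rfl)

lemma dA_symm_x (ψ : Fin D.rank → Fˣ) {r : ℕ} (hr : r < D.nroots) (t : F) :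
    (dA C C3 ψ).symm (XE C hr t) = XE C hr (((tv U D (extF D ψ) r)⁻¹ : Fˣ) * t) := by
  rw [MulEquiv.symm_apply_eq, dA_x]
  congr 1
  simp

include C in
lemma dA_std (ψ : Fin D.rank → Fˣ) : Std (dA C C3 ψ) :=
  std_of_action C _ (fun r hr t => ⟨_, dA_x C C3 ψ hr t⟩) (fun r hr t => ⟨_, dA_symm_x C C3 ψ hr t⟩)

include C3 in
lemma tv_ext (ψ : Fin D.rank → Fˣ) (i : Fin D.rank) : tv U D (extF D ψ) (D.simple i) = ψ i := by
  rw [tv_simple C3 i.2]
  simp [extF]

include C C3 in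
lemma dA_eq_diagE (ψ₀ : ℕ → Fˣ) : dA C C3 (fun i : Fin D.rank => ψ₀ i) = diagE C C3 (fun i => tv U D ψ₀ (D.simple i)) := by
  unfold dA
  have e : ∀ c, tv U D (extF D (fun i : Fin D.rank => ψ₀ i)) c = tv U D ψ₀ c := by
    intro c
    unfold tv
    apply Finset.prod_congr rfl
    intro j hj
    have hj' := Finset.mem_range.mp hj
    simp [extF, hj']
  simp only [e]

/-- the form of a graph automorphism -/
structure IsGForm (C : Checks D T) (π : Equiv.Perm (Fin D.rank)) (θ : ↥(D.group F) ≃* ↥(D.group F)) : Prop where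
  std : Std θ
  pos : ∀ (i : Fin D.rank) (t : F), θ (XE C (C.simple_lt i.1 i.2) t) = XE C (C.simple_lt (π i).1 (π i).2) (t ^ D.graphExp (ringChar F) i (π i))
  neg : ∀ (i : Fin D.rank) (t : F), θ (XE C (negF_lt (C.simple_lt i.1 i.2)) t) = XE C (negF_lt (C.simple_lt (π i).1 (π i).2)) (t ^ D.graphExp (ringChar F) i (π i))

/-- the permutations that occur -/
def Gam (C : Checks D T) (F : Type*) [Field F] : Set (Equiv.Perm (Fin D.rank)) := {π | ∃ θ : ↥(D.group F) ≃* ↥(D.group F), IsGForm C π θ}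

/-- the automorphism attached to a permutation -/
noncomputable def gOf (π : Gam C F) : ↥(D.group F) ≃* ↥(D.group F) := Classical.choose π.2

lemma gOf_spec (π : Gam C F) : IsGForm C π.1 (gOf C π) := Classical.choose_spec π.2

include C3 in
lemma IsGForm.unique {π : Equiv.Perm (Fin D.rank)} {θ θ' : ↥(D.group F) ≃* ↥(D.group F)} (h : IsGForm C π θ) (h' : IsGForm C π θ') : θ = θ' := by
  apply MulEquiv.ext
  intro y
  refine hom_ext_fund C C3 θ.toMonoidHom θ'.toMonoidHom ?_ y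
  intro y i t hi hy
  show θ y = θ' y
  have hq := C.simple_lt i hi
  rcases hy with hy | hy
  · have e : y = XE C hq t := Subtype.ext (eq_xG C hy)
    rw [e]
    have h1 := h.pos ⟨i, hi⟩ t
    have h2 := h'.pos ⟨i, hi⟩ t
    exact h1.trans h2.symm
  · have hneg : D.neg (D.simple i) = negF D (D.simple i) := C.neg _ hq
    rw [hneg] at hy
    have e : y = XE C (negF_lt hq) t := Subtype.ext (eq_xG C hy)
    rw [e]
    have h1 := h.neg ⟨i, hi⟩ t
    have h2 := h'.neg ⟨i, hi⟩ t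
    exact h1.trans h2.symm

lemma one_mem_Gam : (1 : Equiv.Perm (Fin D.rank)) ∈ Gam C F := by
  refine ⟨1, ⟨fun g => Iff.rfl, fun g => Iff.rfl⟩, fun i t => ?_, fun i t => ?_⟩
  · simp [exp_self]
  · simp [exp_self]

/-- the general element -/
noncomputable def Xi (C : Checks D T) (C3 : Checks3 D T U) (ψ : Fin D.rank → Fˣ) (π : Gam C F) (τ : F ≃+* F) : MulAut ↥(D.group F) :=
  dA C C3 ψ * gOf C π * fA C τ

lemma Xi_std (ψ : Fin D.rank → Fˣ) (π : Gam C F) (τ : F ≃+* F) : Xi C C3 ψ π τ ∈ stdG D F :=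
  mul_mem (mul_mem (dA_std C C3 ψ) (gOf_spec C π).std) (fA_std C τ)

lemma Xi_x (ψ : Fin D.rank → Fˣ) (π : Gam C F) (τ : F ≃+* F) (i : Fin D.rank) (t : F) :
    Xi C C3 ψ π τ (XE C (C.simple_lt i.1 i.2) t) = XE C (C.simple_lt (π.1 i).1 (π.1 i).2) ((ψ (π.1 i) : F) * (τ t) ^ D.graphExp (ringChar F) i (π.1 i)) := by
  show dA C C3 ψ (gOf C π (fA C τ _)) = _
  rw [fA_x, (gOf_spec C π).pos, dA_x, tv_ext C3]

lemma exp_pow_inj [Finite F] (c i j : ℕ) (hc : c = ringChar F) {a b : F} (h : a ^ D.graphExp c i j = b ^ D.graphExp c i j) : a = b := by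
  unfold Cfsg.Lie.ChevalleyDatum.graphExp at h
  split_ifs at h
  · subst hc
    haveI : CharP F (ringChar F) := ringChar.charP F
    haveI : Fact (ringChar F).Prime := ⟨(CharP.char_is_prime_or_zero F (ringChar F)).resolve_right (fun h0 => CharP.char_ne_zero_of_finite F (ringChar F) h0)⟩
    have h1 : (a - b) ^ (ringChar F) = a ^ (ringChar F) - b ^ (ringChar F) := sub_pow_char a b
    rw [h, sub_self] at h1
    exact sub_eq_zero.mp (pow_eq_zero_iff (Fact.out : (ringChar F).Prime).ne_zero |>.mp h1)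
  · simpa using h

variable (A : AutTab D T U)

include C2 C3 A in
/-- the parametrisation of the standard automorphisms is injective -/
theorem Xi_inj [Finite F] (hpos : 0 < D.rank) {ψ ψ' : Fin D.rank → Fˣ} {π π' : Gam C F} {τ τ' : F ≃+* F}
    (e : Xi C C3 ψ π τ = Xi C C3 ψ' π' τ') : ψ = ψ' ∧ π = π' ∧ τ = τ' := by
  have key : ∀ (i : Fin D.rank) (t : F), XE C (C.simple_lt (π.1 i).1 (π.1 i).2) ((ψ (π.1 i) : F) * (τ t) ^ D.graphExp (ringChar F) i (π.1 i)) =
      XE C (C.simple_lt (π'.1 i).1 (π'.1 i).2) ((ψ' (π'.1 i) : F) * (τ' t) ^ D.graphExp (ringChar F) i (π'.1 i)) := by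
    intro i t
    rw [← Xi_x C C3, ← Xi_x C C3, e]
  have hπ : π.1 = π'.1 := by
    apply Equiv.ext
    intro i
    have h1 : xG C (D.simple (π.1 i)) ((ψ (π.1 i) : F) * (τ 1) ^ D.graphExp (ringChar F) i (π.1 i)) =
      xG C (D.simple (π'.1 i)) ((ψ' (π'.1 i) : F) * (τ' 1) ^ D.graphExp (ringChar F) i (π'.1 i)) := congrArg Subtype.val (key i 1)
    have h2 : (ψ (π.1 i) : F) * (τ 1) ^ D.graphExp (ringChar F) i (π.1 i) ≠ 0 := by
      rw [map_one, one_pow, mul_one]
      exact Units.ne_zero _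
    have h3 := xG_root_inj (F := F) C C2 (C3.simple_pos _ (π.1 i).2) (C.simple_lt _ (π.1 i).2) (C3.simple_pos _ (π'.1 i).2) (C.simple_lt _ (π'.1 i).2) h1 h2
    exact Fin.ext (A.simple_inj _ (π.1 i).2 _ (π'.1 i).2 h3)
  have hπ' : π = π' := Subtype.ext hπ
  subst hπ'
  have key2 : ∀ (i : Fin D.rank) (t : F), (ψ (π.1 i) : F) * (τ t) ^ D.graphExp (ringChar F) i (π.1 i) = (ψ' (π.1 i) : F) * (τ' t) ^ D.graphExp (ringChar F) i (π.1 i) := by
    intro i t
    exact Tf.xG_param_inj C C2 (C.simple_lt _ (π.1 i).2) (congrArg Subtype.val (key i t))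
  have hψ : ψ = ψ' := by
    funext j
    obtain ⟨i, rfl⟩ := π.1.surjective j
    have := key2 i 1
    simp only [map_one, one_pow, mul_one] at this
    exact Units.ext this
  subst hψ
  refine ⟨rfl, rfl, ?_⟩
  apply RingEquiv.ext
  intro t
  let i₀ : Fin D.rank := ⟨0, hpos⟩
  have h1 := mul_left_cancel₀ (Units.ne_zero _) (key2 i₀ t)
  exact exp_pow_inj _ _ _ rfl h1

include C2 C3 A in
/-- the parametrisation of the standard automorphisms is surjective -/
theorem Xi_sur [Finite F] (hD : D ∈ [chevG2, chevB2, chevD4, chevF4, chevE6, chevE7, chevE8])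
    (hadd : ∀ r, D.nroots / 2 ≤ r → r < D.nroots → addRow D T r = true) {θ : MulAut ↥(D.group F)} (hθ : θ ∈ stdG D F) :
    ∃ (ψ : Fin D.rank → Fˣ) (π : Gam C F) (τ : F ≃+* F), Xi C C3 ψ π τ = θ := by
  obtain ⟨π, σ, ψ₀, θ₃, hθ₂, hform⟩ := reduce C C2 C3 A hadd hθ
  obtain ⟨hsym, τ, hτ⟩ := final_all hD π σ (bonds_transfer C C2 C3 A hform) (torus_rel C C2 C3 hform)
  let d := dA C C3 (fun i : Fin D.rank => ψ₀ i)
  let f := fA C τ
  have hd : d = diagE C C3 (fun i => tv U D ψ₀ (D.simple i)) := dA_eq_diagE C C3 ψ₀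
  have hθe : θ = d * θ₃ := by
    apply MulEquiv.ext
    intro y
    rw [hθ₂, MulAut.mul_apply, hd]
  let g : MulAut ↥(D.group F) := θ₃ * f⁻¹
  have hgstd : g ∈ stdG D F := by
    have e : g = d⁻¹ * θ * f⁻¹ := by
      rw [hθe]
      show θ₃ * f⁻¹ = _
      group
    rw [e]
    exact mul_mem (mul_mem (inv_mem (dA_std C C3 _)) hθ) (inv_mem (fA_std C τ))
  have hgform : IsGForm C π g := by
    refine ⟨hgstd, fun i t => ?_, fun i t => ?_⟩
    · show θ₃ (f.symm (XE C _ t)) = _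
      rw [fA_symm_x]
      apply Subtype.ext
      rw [(hform _ i _).1 rfl, hτ]
      simp [XE]
    · show θ₃ (f.symm (XE C _ t)) = _
      rw [fA_symm_x]
      apply Subtype.ext
      rw [(hform _ i _).2 rfl, hτ]
      simp [XE]
  refine ⟨fun i => ψ₀ i, ⟨π, ⟨g, hgform⟩⟩, τ, ?_⟩
  have e : gOf C ⟨π, ⟨g, hgform⟩⟩ = g := IsGForm.unique C C3 (gOf_spec C _) hgform
  unfold Xi
  rw [e, hθe]
  show d * (θ₃ * f⁻¹) * f = _
  group

include C2 C3 A in
/-- the number of standard automorphisms -/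
theorem card_std [Fintype F] (hD : D ∈ [chevG2, chevB2, chevD4, chevF4, chevE6, chevE7, chevE8])
    (hadd : ∀ r, D.nroots / 2 ≤ r → r < D.nroots → addRow D T r = true) (hpos : 0 < D.rank) :
    Nat.card ↥(stdG D F) = (Fintype.card F - 1) ^ D.rank * (Nat.card (Gam C F) * Nat.card (F ≃+* F)) := by
  classical
  let Φ : (Fin D.rank → Fˣ) × (Gam C F) × (F ≃+* F) → ↥(stdG D F) := fun x => ⟨Xi C C3 x.1 x.2.1 x.2.2, Xi_std C C3 _ _ _⟩
  have hΦ : Function.Bijective Φ := by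
    constructor
    · rintro ⟨ψ, π, τ⟩ ⟨ψ', π', τ'⟩ e
      obtain ⟨h1, h2, h3⟩ := Xi_inj C C2 C3 A hpos (congrArg Subtype.val e)
      exact Prod.ext h1 (Prod.ext h2 h3)
    · rintro ⟨θ, hθ⟩
      obtain ⟨ψ, π, τ, e⟩ := Xi_sur C C2 C3 A hD hadd hθ
      exact ⟨⟨ψ, π, τ⟩, Subtype.ext e⟩
  have e : Nat.card Fˣ = Fintype.card F - 1 := by
    rw [Nat.card_eq_fintype_card, Fintype.card_units]
  rw [← Nat.card_congr (Equiv.ofBijective Φ hΦ), Nat.card_prod, Nat.card_prod, Nat.card_fun, e, Nat.card_eq_fintype_card (α := Fin D.rank), Fintype.card_fin]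

include C2 C3 A in
/-- the main counting formula -/
theorem out_count [Fintype F] (hD : D ∈ [chevG2, chevB2, chevD4, chevF4, chevE6, chevE7, chevE8])
    (hadd : ∀ r, D.nroots / 2 ≤ r → r < D.nroots → addRow D T r = true) (hpos : 0 < D.rank) :
    Nat.card (Cfsg.Out ↥(D.group F)) * Nat.card ↥(D.diagonalSubgroup F) = (Fintype.card F - 1) ^ D.rank * (Nat.card (Gam C F) * Nat.card (F ≃+* F)) := by
  have h1 := card_out_mul (stdG_sup (F := F) C C2 C3 hD)
  rw [card_inn_std C C2 C3, card_std C C2 C3 A hD hadd hpos] at h1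
  exact h1

include C2 C3 A in
/-- properties of the permutations that occur -/
theorem gam_data [Finite F] (hadd : ∀ r, D.nroots / 2 ≤ r → r < D.nroots → addRow D T r = true) {π : Equiv.Perm (Fin D.rank)} (hπ : π ∈ Gam C F) :
    ∃ σ : Fin D.rank → F ≃+* F, (∀ i j : Fin D.rank, i ≠ j → (D.bonds i j = 0 ↔ D.bonds (π i) (π j) = 0)) ∧
      ∀ (i j : Fin D.rank) (c : F), c ≠ 0 → (σ i c) ^ (D.cartan (π i) (D.simple (π j))) = (σ j c) ^ (D.cartan i (D.simple j)) := by
  obtain ⟨g, hg⟩ := hπ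
  obtain ⟨π₁, σ, ψ₀, θ₃, hθ₂, hform⟩ := reduce C C2 C3 A hadd hg.std
  have e : π = π₁ := by
    apply Equiv.ext
    intro i
    have hq := C.simple_lt (π₁ i).1 (π₁ i).2
    have h1 := hg.pos i 1
    rw [hθ₂] at h1
    have h2 : θ₃ (XE C (C.simple_lt i.1 i.2) (1 : F)) = XE C hq (σ i 1) := Subtype.ext ((hform _ i _).1 rfl)
    rw [h2, ← dA_eq_diagE C C3 ψ₀, dA_x] at h1
    have h3 := congrArg Subtype.val h1
    have h4 : xG C (D.simple (π₁ i)) ((tv U D (extF D (fun j : Fin D.rank => ψ₀ j)) (D.simple (π₁ i)) : Fˣ) * σ i 1) = xG C (D.simple (π i)) ((1 : F) ^ D.graphExp (ringChar F) i (π i)) := h3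
    have h5 := xG_root_inj (F := F) C C2 (C3.simple_pos _ (π₁ i).2) hq (C3.simple_pos _ (π i).2) (C.simple_lt _ (π i).2) h4 (by
      rw [map_one, mul_one]
      exact Units.ne_zero _)
    exact (Fin.ext (A.simple_inj _ (π₁ i).2 _ (π i).2 h5)).symm
  subst e
  exact ⟨σ, bonds_transfer C C2 C3 A hform, torus_rel C C2 C3 hform⟩

end

end Cfsg.Agent.H04.AutT
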