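import Cfsg.Agent.Lib.H04.Aut.CountE8
import Cfsg.Agent.Lib.H04.Res.E6Fin
import Cfsg.Agent.Lib.H04.Tf.Inst

/-!
# The orders of the outer automorphism groups: types `E₆` and `F₄`
-/

set_option autoImplicit false
set_option maxRecDepth 100000
set_option linter.style.longLine false
set_option linter.unusedSimpArgs false
set_option linter.unusedSectionVars false
set_option linter.unusedVariables false

open Cfsg.Lie Cfsg.Agent.H04.Chev Cfsg.Agent.H04.Tw

namespace Cfsg.Agent.H04.AutT

variable {D : ChevalleyDatum} {T : Tabs} {U : Tabs3}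

section
variable (C : Checks D T) (C2 : Checks2 D T) (C3 : Checks3 D T U)
variable {F : Type*} [Field F]

include C2 in
lemma std_of_bar (θ : ↥(D.group F) ≃* ↥(D.group F)) (bar : ℕ → ℕ) (hlt : ∀ r, r < D.nroots → bar r < D.nroots)
    (h1 : ∀ (r : ℕ) (hr : r < D.nroots) (t : F), ∃ s, θ (XE C hr t) = XE C (hlt r hr) s)
    (h2 : ∀ (r : ℕ) (hr : r < D.nroots) (t : F), ∃ u, θ (XE C hr u) = XE C (hlt r hr) t)
    (hsur : ∀ r, r < D.nroots → ∃ s, s < D.nroots ∧ bar s = r)
    (hp : ∀ r, r < D.nroots → (D.nroots / 2 ≤ bar r ↔ D.nroots / 2 ≤ r)) : Std θ := by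
  have key : ∀ R : ℕ → Prop, (∀ r, r < D.nroots → (R (bar r) ↔ R r)) → ∀ g : ↥(D.group F), (θ g).1 ∈ RS C R F ↔ g.1 ∈ RS C R F := by
    intro R hR g
    constructor
    · intro h
      have := fw C θ.symm R (fun r hr t hRr => ?_) (θ g) h
      · simpa using this
      · obtain ⟨s, hs, rfl⟩ := hsur r hr
        obtain ⟨u, hu⟩ := h2 s hs t
        have e : θ.symm (XE C hr t) = XE C hs u := by
          rw [MulEquiv.symm_apply_eq, hu]
        rw [e]
        exact Subgroup.subset_closure ⟨s, u, hs, (hR s hs).mp hRr, rfl⟩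
    · intro h
      refine fw C θ R (fun r hr t hRr => ?_) g h
      obtain ⟨s, hs⟩ := h1 r hr t
      rw [hs]
      exact Subgroup.subset_closure ⟨bar r, s, hlt r hr, (hR r hr).mpr hRr, rfl⟩
  constructor
  · intro g
    rw [pos_eq_RS C]
    refine key _ (fun r hr => ?_) g
    rw [C2.pos_iff, C2.pos_iff]
    constructor
    · rintro ⟨h3, _⟩
      exact ⟨(hp r hr).mp h3, hr⟩
    · rintro ⟨h3, _⟩
      exact ⟨(hp r hr).mpr h3, hlt r hr⟩
  · intro g
    rw [neg_eq_RS C]
    refine key _ (fun r hr => ?_) g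
    rw [C2.neg_iff, C2.neg_iff]
    have := hp r hr
    omega

end

section Tw
variable {F : Type*} [Field F] (C : Checks D T) (C2 : Checks2 D T) {G : GT} {d : ℕ} (hg : TwT D T G d)

include C2 in
lemma graphAut_std : Std (graphAut (F := F) C hg) := by
  refine std_of_bar C C2 _ G.bar (fun r hr => hg.gok.root r hr) (fun r hr t => ?_) (fun r hr t => ?_) (fun r hr => ?_) (fun r hr => ?_)
  · exact ⟨_, Subtype.ext (graph_conj C hg hr t)⟩
  · refine ⟨sv F (G.neg r) 1 * t, Subtype.ext ?_⟩
    refine (graph_conj C hg hr _).trans ?_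
    rw [← mul_assoc, sv_one_sq, one_mul]
    rfl
  · exact exists_preimage hg hr
  · constructor
    · intro h
      by_contra h0
      have hn := negF_pos C2 (not_le.mp h0)
      have h3 := hg.pos _ hn (negF_lt hr)
      rw [hg.neg_bar r hr] at h3
      have h4 := negF_neg C2 h (hg.gok.root r hr)
      omega
    · intro h
      exact hg.pos r h hr

end Tw

section E6
variable {F : Type*} [Field F] [Fintype F]

open Cfsg.Agent.H04.Res.RE6

/-- the permutation -/
abbrev rhoE : Equiv.Perm (Fin chevE6.rank) := rhoP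

lemma rhoE_eq (i : Fin chevE6.rank) : ((rhoE i : Fin chevE6.rank) : ℕ) = TE6.rho i := rhoP_eq i

lemma e6_form : IsGForm (F := F) (D := chevE6) TE6.checks rhoE (graphAut TE6.checks TE6.twT) := by
  refine ⟨graphAut_std TE6.checks TE6.checks2 TE6.twT, fun i t => ?_, fun i t => ?_⟩
  · have hg := (graphAut_apply (F := F) TE6.checks TE6.twT TE6.jT (g := XE TE6.checks (TE6.checks.simple_lt i.1 i.2) t) (t := t) i.2).1 (xG_val TE6.checks _ _)
    rw [exp_one _ _ _ (rhoE i).2, pow_one]
    apply Subtype.ext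
    apply Units.ext
    refine hg.trans ?_
    rw [← rhoE_eq]
    exact (xG_val TE6.checks _ _).symm
  · have hq := TE6.checks.simple_lt i.1 i.2
    have hg := (graphAut_apply (F := F) TE6.checks TE6.twT TE6.jT (g := XE TE6.checks (negF_lt hq) t) (t := t) i.2).2 (by
      rw [neg_eq TE6.checks.neg hq]
      exact xG_val TE6.checks _ _)
    rw [exp_one _ _ _ (rhoE i).2, pow_one]
    apply Subtype.ext
    apply Units.ext
    refine hg.trans ?_
    rw [← rhoE_eq, neg_eq TE6.checks.neg (TE6.checks.simple_lt _ (rhoE i).2)]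
    exact (xG_val TE6.checks _ _).symm

lemma gam_E6 : Gam (D := chevE6) TE6.checks F = {1, rhoE} := by
  have hD : chevE6 ∈ [chevG2, chevB2, chevD4, chevF4, chevE6, chevE7, chevE8] := by simp
  have hadd : ∀ r, chevE6.nroots / 2 ≤ r → r < chevE6.nroots → addRow chevE6 TE6.T r = true := fun r h0 hr => segAll_spec addE6 r h0 hr
  ext π
  constructor
  · intro hπ
    have h1 := gam_sym TE6.checks TE6.checks2 TE6.checks3 tabE6 hD hadd hπ
    rcases sym_cases π h1 with h | h
    · exact Or.inl h
    · exact Or.inr h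
  · rintro (h | h)
    · have e1 : π = 1 := h
      rw [e1]
      exact one_mem_Gam _
    · have e1 : π = rhoE := h
      rw [e1]
      exact ⟨_, e6_form⟩

theorem outE6 (p f : ℕ) [hp : Fact p.Prime] (hF : Fintype.card F = p ^ f) :
    Nat.card (Cfsg.Out ↥(chevE6.group F)) = 2 * Nat.gcd 3 (p ^ f - 1) * f := by
  have hD : chevE6 ∈ [chevG2, chevB2, chevD4, chevF4, chevE6, chevE7, chevE8] := by simp
  have hadd : ∀ r, chevE6.nroots / 2 ≤ r → r < chevE6.nroots → addRow chevE6 TE6.T r = true := fun r h0 hr => segAll_spec addE6 r h0 hr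
  have h1 := out_count (F := F) TE6.checks TE6.checks2 TE6.checks3 tabE6 hD hadd (by decide)
  have hc : Nat.card (Gam (D := chevE6) TE6.checks F) = 2 := by
    rw [gam_E6, Nat.card_coe_set_eq, Set.ncard_pair]
    decide
  rw [hc, card_ring_aut hp.out hF (f_pos hp.out hF)] at h1
  have h2 := S1035_gen (F := F) hF (chevE6, Nat.gcd 3 (p ^ f - 1)) (by simp)
  simp only at h2
  rw [hF, ← h2] at h1
  have h3 : 0 < Nat.card ↥(chevE6.diagonalSubgroup F) := Nat.card_pos
  have h4 : Nat.card (Cfsg.Out ↥(chevE6.group F)) * Nat.card ↥(chevE6.diagonalSubgroup F) = (2 * Nat.gcd 3 (p ^ f - 1) * f) * Nat.card ↥(chevE6.diagonalSubgroup F) := by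
    rw [h1]
    ring
  exact Nat.eq_of_mul_eq_mul_right h3 h4

end E6

section F4
variable {F : Type*} [Field F] [Fintype F]

open Cfsg.Agent.H04.Tf Cfsg.Agent.H04.Tf.TF4

/-- the permutation -/
abbrev revE : Equiv.Perm (Fin chevF4.rank) := rev4

lemma f4_x_tab : ∀ i : Fin 4, X.bar (chevF4.simple i) = chevF4.simple (rev4 i) ∧ X.bar (negF chevF4 (chevF4.simple i)) = negF chevF4 (chevF4.simple (rev4 i)) ∧
    X.lam (chevF4.simple i) = chevF4.graphExp 2 i (rev4 i) ∧ X.lam (negF chevF4 (chevF4.simple i)) = chevF4.graphExp 2 i (rev4 i) := by decide +kernel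

lemma f4_form [CharP F 2] : IsGForm (F := F) (D := chevF4) TF4.checks revE (xEquiv TF4.checks TF4.checks2 TF4.checks3 F xOK perfK) := by
  have hch : ringChar F = 2 := ringChar.eq F 2
  refine ⟨std_of_bar TF4.checks TF4.checks2 _ X.bar xOK.bar_root (fun r hr t => ?_) (fun r hr t => ?_) (fun r hr => ?_) (fun r hr => ?_), fun i t => ?_, fun i t => ?_⟩
  · exact ⟨_, Subtype.ext (xEquiv_x TF4.checks TF4.checks2 TF4.checks3 xOK perfK hr t)⟩
  · rcases xOK.lam r hr with h1 | h1
    · refine ⟨t, Subtype.ext ?_⟩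
      refine (xEquiv_x TF4.checks TF4.checks2 TF4.checks3 xOK perfK hr t).trans ?_
      rw [h1, pow_one]
      rfl
    · obtain ⟨y, hy⟩ := perfK t
      refine ⟨y, Subtype.ext ?_⟩
      refine (xEquiv_x TF4.checks TF4.checks2 TF4.checks3 xOK perfK hr y).trans ?_
      rw [h1, hy]
      rfl
  · exact ⟨X.bar r, (sft1 r hr).1, (sft1 r hr).2.1⟩
  · have hn : chevF4.nroots / 2 = 24 := rfl
    rw [hn]
    constructor
    · intro h
      by_contra h0
      have h1 : 24 ≤ negF chevF4 r := by
        have := negF_pos TF4.checks2 (r := r) (by rw [hn]; omega)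
        exact this
      have h2 := (sft1 _ (negF_lt hr)).2.2.2.2 h1
      rw [(sft1 r hr).2.2.1] at h2
      have h3 := negF_neg TF4.checks2 (by rw [hn]; exact h) ((sft1 r hr).1)
      rw [hn] at h3
      omega
    · intro h
      exact (sft1 r hr).2.2.2.2 h
  · obtain ⟨h1, h2, h3, h4⟩ := f4_x_tab i
    apply Subtype.ext
    refine (xEquiv_x TF4.checks TF4.checks2 TF4.checks3 xOK perfK (TF4.checks.simple_lt i.1 i.2) t).trans ?_
    have h5 : X.bar (chevF4.simple i) = chevF4.simple (revE i) := h1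
    have h6 : X.lam (chevF4.simple i) = chevF4.graphExp 2 i (revE i) := h3
    rw [hch, ← h6, h5]
    rfl
  · obtain ⟨h1, h2, h3, h4⟩ := f4_x_tab i
    apply Subtype.ext
    refine (xEquiv_x TF4.checks TF4.checks2 TF4.checks3 xOK perfK (negF_lt (TF4.checks.simple_lt i.1 i.2)) t).trans ?_
    have h5 : X.bar (negF chevF4 (chevF4.simple i)) = negF chevF4 (chevF4.simple (revE i)) := h2
    have h6 : X.lam (negF chevF4 (chevF4.simple i)) = chevF4.graphExp 2 i (revE i) := h4
    rw [hch, ← h6, h5]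
    rfl

lemma rev_char {σ : Fin 4 → F ≃+* F} (R : ∀ (i j : Fin 4) (c : F), c ≠ 0 → (σ i c) ^ (chevF4.cartan (rev4 i) (chevF4.simple (rev4 j))) = (σ j c) ^ (chevF4.cartan i (chevF4.simple j))) : (2 : F) = 0 := by
  have hs : ∀ c : F, σ 1 c = (σ 2 c) ^ 2 := by
    intro c
    by_cases hc : c = 0
    · subst hc
      simp
    · have h : (σ 2 c) ^ (chevF4.cartan 1 (chevF4.simple 2)) = (σ 1 c) ^ (chevF4.cartan 2 (chevF4.simple 1)) := R 2 1 c hc
      rw [f4_c12, f4_c21, zpow_neg_one] at h
      have h4 : (σ 2 c) ^ (-2 : ℤ) = ((σ 2 c) ^ 2)⁻¹ := by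
        rw [zpow_neg, zpow_ofNat]
      rw [h4] at h
      exact (inv_injective h).symm
  have h1 := hs 2
  have h2 : σ 1 2 = 2 := map_ofNat _ 2
  have h3 : σ 2 2 = 2 := map_ofNat _ 2
  rw [h2, h3] at h1
  have h4 : (2 : F) * (2 - 1) = 0 := by linear_combination -h1
  simpa [show (2 : F) - 1 = 1 by norm_num] using h4

lemma gam_F4 : Gam (D := chevF4) TF4.checks F ⊆ {1, revE} := by
  have hadd : ∀ r, chevF4.nroots / 2 ≤ r → r < chevF4.nroots → addRow chevF4 TF4.T r = true := fun r h0 hr => segAll_spec addF4 r h0 hr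
  intro π hπ
  obtain ⟨σ, h1, h2⟩ := gam_data TF4.checks TF4.checks2 TF4.checks3 tabF4 hadd hπ
  rcases f4_cases π h1 with h | h
  · exact Or.inl h
  · exact Or.inr h

theorem outF4 (p f : ℕ) [hp : Fact p.Prime] [hc : CharP F p] (hF : Fintype.card F = p ^ f) :
    Nat.card (Cfsg.Out ↥(chevF4.group F)) = Nat.gcd 2 p * f := by
  have hD : chevF4 ∈ [chevG2, chevB2, chevD4, chevF4, chevE6, chevE7, chevE8] := by simp
  have hadd : ∀ r, chevF4.nroots / 2 ≤ r → r < chevF4.nroots → addRow chevF4 TF4.T r = true := fun r h0 hr => segAll_spec addF4 r h0 hr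
  have h1 := out_count (F := F) TF4.checks TF4.checks2 TF4.checks3 tabF4 hD hadd (by decide)
  have hc : Nat.card (Gam (D := chevF4) TF4.checks F) = Nat.gcd 2 p := by
    by_cases hp2 : p = 2
    · subst hp2
      have e : Gam (D := chevF4) TF4.checks F = {1, revE} := by
        apply Set.Subset.antisymm gam_F4
        rintro π (h | h)
        · have e1 : π = 1 := h
          rw [e1]
          exact one_mem_Gam _
        · have e1 : π = revE := h
          rw [e1]
          exact ⟨_, f4_form⟩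
      rw [e, Nat.card_coe_set_eq, Set.ncard_pair]
      · simp
      · decide
    · have hg : Nat.gcd 2 p = 1 := by
        rw [Nat.gcd_comm]
        exact (Nat.coprime_primes hp.out Nat.prime_two).mpr hp2
      have e : Gam (D := chevF4) TF4.checks F = {1} := by
        ext π
        constructor
        · intro hπ
          rcases gam_F4 hπ with h | h
          · exact h
          · exfalso
            have e1 : π = revE := h
            subst e1
            obtain ⟨σ, -, h2⟩ := gam_data TF4.checks TF4.checks2 TF4.checks3 tabF4 hadd hπ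
            have h3 := rev_char h2
            have h4 : (p : ℕ) ∣ 2 := (CharP.cast_eq_zero_iff F p 2).mp (by exact_mod_cast h3)
            exact hp2 ((Nat.prime_dvd_prime_iff_eq hp.out Nat.prime_two).mp h4)
        · intro h
          have e1 : π = 1 := h
          rw [e1]
          exact one_mem_Gam _
      rw [e, hg]
      simp
  rw [hc, card_ring_aut hp.out hF (f_pos hp.out hF)] at h1
  have h2 := S1035_gen (F := F) rfl (chevF4, 1) (by simp)
  simp only [one_mul] at h2
  rw [h2] at h1
  have h3 : 0 < (Fintype.card F - 1) ^ chevF4.rank := pow_pos q_sub_pos _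
  rw [mul_comm] at h1
  exact Nat.eq_of_mul_eq_mul_left h3 h1

end F4

end Cfsg.Agent.H04.AutT
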