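import Cfsg.Agent.Lib.H04.Aut.Count
import Cfsg.Agent.Lib.H04.Chev.TorusFinal

/-!
# The orders of the outer automorphism groups: types `E₈` and `E₇`
-/

set_option autoImplicit false
set_option maxRecDepth 100000
set_option synthInstance.maxHeartbeats 0
set_option synthInstance.maxSize 100000
set_option linter.style.longLine false
set_option linter.unusedSimpArgs false
set_option linter.unusedSectionVars false
set_option linter.unusedVariables false

open Cfsg.Lie Cfsg.Agent.H04.Chev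

namespace Cfsg.Agent.H04.AutT

lemma e8_rigid : ∀ a3 a1 : Fin 8, chevE8.bonds a1 a3 = 1 → ∀ a2 : Fin 8, chevE8.bonds a2 a3 = 1 → a2 ≠ a1 → ∀ a4 : Fin 8, chevE8.bonds a4 a3 = 1 → a4 ≠ a1 → a4 ≠ a2 →
    ∀ a0 : Fin 8, chevE8.bonds a0 a2 = 1 → a0 ≠ a3 → ∀ a5 : Fin 8, chevE8.bonds a5 a4 = 1 → a5 ≠ a3 → ∀ a6 : Fin 8, chevE8.bonds a6 a5 = 1 → a6 ≠ a4 → ∀ a7 : Fin 8, chevE8.bonds a7 a6 = 1 → a7 ≠ a5 →
    a0 = 0 ∧ a1 = 1 ∧ a2 = 2 ∧ a3 = 3 ∧ a4 = 4 ∧ a5 = 5 ∧ a6 = 6 ∧ a7 = 7 := by decide +kernel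

lemma e7_rigid : ∀ a3 a1 : Fin 7, chevE7.bonds a1 a3 = 1 → ∀ a2 : Fin 7, chevE7.bonds a2 a3 = 1 → a2 ≠ a1 → ∀ a4 : Fin 7, chevE7.bonds a4 a3 = 1 → a4 ≠ a1 → a4 ≠ a2 →
    ∀ a0 : Fin 7, chevE7.bonds a0 a2 = 1 → a0 ≠ a3 → ∀ a5 : Fin 7, chevE7.bonds a5 a4 = 1 → a5 ≠ a3 → ∀ a6 : Fin 7, chevE7.bonds a6 a5 = 1 → a6 ≠ a4 →
    a0 = 0 ∧ a1 = 1 ∧ a2 = 2 ∧ a3 = 3 ∧ a4 = 4 ∧ a5 = 5 ∧ a6 = 6 := by decide +kernel

lemma e8_sym (π : Equiv.Perm (Fin 8)) (h : ∀ i j : Fin 8, i ≠ j → chevE8.bonds (π i) (π j) = chevE8.bonds i j) : π = 1 := by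
  have hb : ∀ i j : Fin 8, i ≠ j → chevE8.bonds i j = 1 → chevE8.bonds (π i) (π j) = 1 := fun i j hij e => by rw [h i j hij, e]
  have inj : ∀ i j : Fin 8, i ≠ j → π i ≠ π j := fun i j hij e => hij (π.injective e)
  obtain ⟨h0, h1, h2, h3, h4, h5, h6, h7⟩ := e8_rigid (π 3) (π 1) (hb _ _ (by decide) (by decide +kernel)) (π 2) (hb _ _ (by decide) (by decide +kernel)) (inj _ _ (by decide))
    (π 4) (hb _ _ (by decide) (by decide +kernel)) (inj _ _ (by decide)) (inj _ _ (by decide)) (π 0) (hb _ _ (by decide) (by decide +kernel)) (inj _ _ (by decide))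
    (π 5) (hb _ _ (by decide) (by decide +kernel)) (inj _ _ (by decide)) (π 6) (hb _ _ (by decide) (by decide +kernel)) (inj _ _ (by decide)) (π 7) (hb _ _ (by decide) (by decide +kernel)) (inj _ _ (by decide))
  apply Equiv.ext
  intro i
  fin_cases i <;> assumption

lemma e7_sym (π : Equiv.Perm (Fin 7)) (h : ∀ i j : Fin 7, i ≠ j → chevE7.bonds (π i) (π j) = chevE7.bonds i j) : π = 1 := by
  have hb : ∀ i j : Fin 7, i ≠ j → chevE7.bonds i j = 1 → chevE7.bonds (π i) (π j) = 1 := fun i j hij e => by rw [h i j hij, e]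
  have inj : ∀ i j : Fin 7, i ≠ j → π i ≠ π j := fun i j hij e => hij (π.injective e)
  obtain ⟨h0, h1, h2, h3, h4, h5, h6⟩ := e7_rigid (π 3) (π 1) (hb _ _ (by decide) (by decide +kernel)) (π 2) (hb _ _ (by decide) (by decide +kernel)) (inj _ _ (by decide))
    (π 4) (hb _ _ (by decide) (by decide +kernel)) (inj _ _ (by decide)) (inj _ _ (by decide)) (π 0) (hb _ _ (by decide) (by decide +kernel)) (inj _ _ (by decide))
    (π 5) (hb _ _ (by decide) (by decide +kernel)) (inj _ _ (by decide)) (π 6) (hb _ _ (by decide) (by decide +kernel)) (inj _ _ (by decide))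
  apply Equiv.ext
  intro i
  fin_cases i <;> assumption

theorem card_ring_aut {K : Type*} [Field K] [Fintype K] {p f : ℕ} (hp : p.Prime)
    (hq : Fintype.card K = p ^ f) (hf : 1 ≤ f) : Nat.card (K ≃+* K) = f := by
  haveI : Fact p.Prime := ⟨hp⟩
  haveI : CharP K p := by
    obtain ⟨r, hr⟩ := CharP.exists K
    haveI := hr
    obtain ⟨n, hr1, hr2⟩ := FiniteField.card K r
    haveI : Fact r.Prime := ⟨hr1⟩
    have h1 : r ∣ p ^ f := by
      rw [← hq, hr2]
      exact dvd_pow_self r n.ne_zero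
    have h2 := (Nat.prime_dvd_prime_iff_eq hr1 hp).mp (hr1.dvd_of_dvd_pow h1)
    subst h2
    exact hr
  letI : Algebra (ZMod p) K := ZMod.algebra K p
  have hfr : Module.finrank (ZMod p) K = f := by
    have h1 := Module.card_eq_pow_finrank (K := ZMod p) (V := K)
    rw [ZMod.card, hq] at h1
    exact (Nat.pow_right_injective hp.two_le h1).symm
  haveI : IsGalois (ZMod p) K := inferInstance
  have hcard : Nat.card (K ≃ₐ[ZMod p] K) = f := by
    rw [IsGalois.card_aut_eq_finrank, hfr]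
  have hfix : ∀ (σ : K ≃+* K) (r : ZMod p), σ (algebraMap (ZMod p) K r) = algebraMap (ZMod p) K r := by
    intro σ r
    have := RingHom.ext_zmod (((σ : K →+* K)).comp (algebraMap (ZMod p) K)) (algebraMap (ZMod p) K)
    exact congrArg (fun φ : ZMod p →+* K => φ r) this
  let e1 : (K ≃+* K) ≃ (K ≃ₐ[ZMod p] K) :=
    { toFun := fun σ => AlgEquiv.ofRingEquiv (f := σ) (hfix σ)
      invFun := fun τ => τ.toRingEquiv
      left_inv := fun σ => by ext x; rfl
      right_inv := fun τ => by ext x; rfl }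
  rw [Nat.card_congr e1, hcard]

variable {D : ChevalleyDatum} {T : Tabs} {U : Tabs3}

section
variable (C : Checks D T) (C2 : Checks2 D T) (C3 : Checks3 D T U) (A : AutTab D T U)
variable {F : Type*} [Field F]

include C2 C3 A in
theorem gam_sym [Finite F] (hD : D ∈ [chevG2, chevB2, chevD4, chevF4, chevE6, chevE7, chevE8])
    (hadd : ∀ r, D.nroots / 2 ≤ r → r < D.nroots → addRow D T r = true) {π : Equiv.Perm (Fin D.rank)} (hπ : π ∈ Gam C F) : D.IsDiagramSymmetry π := by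
  obtain ⟨σ, h1, h2⟩ := gam_data C C2 C3 A hadd hπ
  exact (final_all hD π σ h1 h2).1

include C2 C3 A in
theorem gam_card_one [Finite F] (hD : D ∈ [chevG2, chevB2, chevD4, chevF4, chevE6, chevE7, chevE8])
    (hadd : ∀ r, D.nroots / 2 ≤ r → r < D.nroots → addRow D T r = true) (h : ∀ π : Equiv.Perm (Fin D.rank), D.IsDiagramSymmetry π → π = 1) :
    Nat.card (Gam C F) = 1 := by
  have e : Gam C F = {1} := by
    ext π
    constructor
    · intro hπ
      exact h π (gam_sym C C2 C3 A hD hadd hπ)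
    · intro hπ
      have e1 : π = 1 := hπ
      rw [e1]
      exact one_mem_Gam C
  rw [e]
  simp

end

lemma f_pos {F : Type*} [Field F] [Fintype F] {p f : ℕ} (hp : p.Prime) (hF : Fintype.card F = p ^ f) : 1 ≤ f := by
  by_contra h
  have h0 : f = 0 := by omega
  subst h0
  have h1 := Fintype.one_lt_card (α := F)
  rw [hF] at h1
  simp at h1

lemma q_sub_pos {F : Type*} [Field F] [Fintype F] : 0 < Fintype.card F - 1 := by
  have h1 := Fintype.one_lt_card (α := F)
  omega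

theorem outE8 {F : Type*} [Field F] [Fintype F] (p f : ℕ) [hp : Fact p.Prime] (hF : Fintype.card F = p ^ f) :
    Nat.card (Cfsg.Out ↥(chevE8.group F)) = f := by
  have hD : chevE8 ∈ [chevG2, chevB2, chevD4, chevF4, chevE6, chevE7, chevE8] := by simp
  have hadd : ∀ r, chevE8.nroots / 2 ≤ r → r < chevE8.nroots → addRow chevE8 TE8.T r = true := fun r h0 hr => segAll_spec addE8 r h0 hr
  have h1 := out_count (F := F) TE8.checks TE8.checks2 TE8.checks3 tabE8 hD hadd (by decide)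
  rw [gam_card_one TE8.checks TE8.checks2 TE8.checks3 tabE8 hD hadd e8_sym, one_mul, card_ring_aut hp.out hF (f_pos hp.out hF)] at h1
  have h2 := S1035_gen (F := F) rfl (chevE8, 1) (by simp)
  simp only [one_mul] at h2
  rw [h2] at h1
  have h3 : 0 < (Fintype.card F - 1) ^ chevE8.rank := pow_pos q_sub_pos _
  rw [mul_comm] at h1
  exact Nat.eq_of_mul_eq_mul_left h3 h1

theorem outE7 {F : Type*} [Field F] [Fintype F] (p f : ℕ) [hp : Fact p.Prime] (hF : Fintype.card F = p ^ f) :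
    Nat.card (Cfsg.Out ↥(chevE7.group F)) = Nat.gcd 2 (p ^ f - 1) * f := by
  have hD : chevE7 ∈ [chevG2, chevB2, chevD4, chevF4, chevE6, chevE7, chevE8] := by simp
  have hadd : ∀ r, chevE7.nroots / 2 ≤ r → r < chevE7.nroots → addRow chevE7 TE7.T r = true := fun r h0 hr => segAll_spec addE7 r h0 hr
  have h1 := out_count (F := F) TE7.checks TE7.checks2 TE7.checks3 tabE7 hD hadd (by decide)
  rw [gam_card_one TE7.checks TE7.checks2 TE7.checks3 tabE7 hD hadd e7_sym, one_mul, card_ring_aut hp.out hF (f_pos hp.out hF)] at h1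
  have h2 := S1035_gen (F := F) hF (chevE7, Nat.gcd 2 (p ^ f - 1)) (by simp)
  simp only at h2
  rw [hF, ← h2] at h1
  have h3 : 0 < Nat.card ↥(chevE7.diagonalSubgroup F) := by
    have : Finite ↥(chevE7.diagonalSubgroup F) := inferInstance
    exact Nat.card_pos
  have h4 : Nat.card (Cfsg.Out ↥(chevE7.group F)) * Nat.card ↥(chevE7.diagonalSubgroup F) = (Nat.gcd 2 (p ^ f - 1) * f) * Nat.card ↥(chevE7.diagonalSubgroup F) := by
    rw [h1]
    ring
  exact Nat.eq_of_mul_eq_mul_right h3 h4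

end Cfsg.Agent.H04.AutT
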