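import Cfsg.Agent.Lib.H04.Aut.CountE6
import Cfsg.Agent.Lib.H10.ReeRho

/-!
# The order of the outer automorphism group: type `G₂`
-/

set_option autoImplicit false
set_option maxRecDepth 100000
set_option linter.style.longLine false
set_option linter.unusedSimpArgs false
set_option linter.unusedSectionVars false
set_option linter.unusedVariables false

open Cfsg.Lie Cfsg.Agent.H04.Chev

namespace Cfsg.Agent.H04.AutT

open Cfsg.Agent.H10

section
variable {F : Type*} [Field F] [Fintype F]

/-- the permutation -/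
abbrev swP : Equiv.Perm (Fin 2) := Equiv.swap 0 1

/-- the permutation -/
abbrev swE : Equiv.Perm (Fin chevG2.rank) := swP

lemma g2_x_tab : ∀ i : Fin 2, reeBar (chevG2.simple i) = chevG2.simple (swP i) ∧ reeBar (negF chevG2 (chevG2.simple i)) = negF chevG2 (chevG2.simple (swP i)) ∧
    reeLam (chevG2.simple i) = chevG2.graphExp 3 i (swP i) ∧ reeLam (negF chevG2 (chevG2.simple i)) = chevG2.graphExp 3 i (swP i) := by decide +kernel

lemma ree_pos_tab : ∀ r, r < 12 → (6 ≤ reeBar r ↔ 6 ≤ r) := by decide +kernel

lemma ree_lam_tab : ∀ r, r < 12 → reeLam r = 1 ∨ reeLam r = 3 := by decide +kernel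

lemma cube_sur [CharP F 3] (x : F) : ∃ y : F, y ^ 3 = x := by
  haveI : Fact (Nat.Prime 3) := ⟨Nat.prime_three⟩
  have hinj : Function.Injective (fun y : F => y ^ 3) := by
    intro a b e
    have h1 : (a - b) ^ 3 = a ^ 3 - b ^ 3 := sub_pow_char a b
    have e' : a ^ 3 = b ^ 3 := e
    rw [e', sub_self] at h1
    exact sub_eq_zero.mp (pow_eq_zero_iff (by norm_num) |>.mp h1)
  exact Finite.injective_iff_surjective.mp hinj x

/-- the exceptional automorphism -/
lemma ree_bij [CharP F 3] : Function.Bijective (reeSig (RingHom.id F)) := by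
  have hsur : Function.Surjective (reeSig (RingHom.id F)) := by
    rw [← MonoidHom.range_eq_top, eq_top_iff]
    rintro ⟨g, hg⟩ _
    have hg0 : g ∈ Subgroup.closure {g | ∃ (r : ℕ) (t : F), r < chevG2.nroots ∧ g = xG TG2.checks r t} := by
      rw [← group_eq TG2.checks]
      exact hg
    have key : g ∈ (reeSig (RingHom.id F)).range.map (chevG2.group F).subtype := by
      have hle : Subgroup.closure {g | ∃ (r : ℕ) (t : F), r < chevG2.nroots ∧ g = xG TG2.checks r t} ≤ (reeSig (RingHom.id F)).range.map (chevG2.group F).subtype := by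
        rw [Subgroup.closure_le]
        rintro _ ⟨r, t, hr, rfl⟩
        have hr' : r < 12 := hr
        have hb : reeBar r < 12 := reeBar_lt hr'
        obtain ⟨v, hv⟩ : ∃ v : F, v ^ reeLam (reeBar r) = t := by
          rcases ree_lam_tab _ hb with e | e
          · exact ⟨t, by rw [e, pow_one]⟩
          · obtain ⟨y, hy⟩ := cube_sur t
            exact ⟨y, by rw [e, hy]⟩
        refine ⟨rG hr' t, ⟨rG hb v, Subtype.ext ?_⟩, rfl⟩
        have e1 := reeSig_rG (RingHom.id F) hb v
        rw [e1]
        show xG TG2.checks _ _ = xG TG2.checks _ _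
        simp only [RingHom.id_apply, hv, reeBar_bar hr']
      exact hle hg0
    obtain ⟨x, hx, e⟩ := key
    have : x = ⟨g, hg⟩ := Subtype.ext e
    rw [← this]
    exact hx
  exact ⟨Finite.injective_iff_surjective.mpr hsur, hsur⟩

/-- the exceptional automorphism -/
noncomputable def sigE [CharP F 3] : ↥(chevG2.group F) ≃* ↥(chevG2.group F) := MulEquiv.ofBijective (reeSig (RingHom.id F)) ree_bij

lemma sigE_x [CharP F 3] {r : ℕ} (hr : r < chevG2.nroots) (t : F) : sigE (XE TG2.checks hr t) = XE TG2.checks (reeBar_lt hr) (t ^ reeLam r) := by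
  exact reeSig_rG (RingHom.id F) (show r < 12 from hr) t

lemma g2_form [CharP F 3] : IsGForm (F := F) (D := chevG2) TG2.checks swE sigE := by
  have hch : ringChar F = 3 := ringChar.eq F 3
  refine ⟨std_of_bar TG2.checks TG2.checks2 _ reeBar (fun r hr => reeBar_lt hr) (fun r hr t => ?_) (fun r hr t => ?_) (fun r hr => ?_) (fun r hr => ?_), fun i t => ?_, fun i t => ?_⟩
  · exact ⟨_, sigE_x hr t⟩
  · rcases ree_lam_tab r hr with h1 | h1
    · refine ⟨t, ?_⟩
      rw [sigE_x, h1, pow_one]
    · obtain ⟨y, hy⟩ := cube_sur t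
      refine ⟨y, ?_⟩
      rw [sigE_x, h1, hy]
  · exact ⟨reeBar r, reeBar_lt hr, reeBar_bar hr⟩
  · exact ree_pos_tab r hr
  · obtain ⟨h1, h2, h3, h4⟩ := g2_x_tab i
    rw [sigE_x]
    apply Subtype.ext
    have h5 : reeBar (chevG2.simple i) = chevG2.simple (swE i) := h1
    have h6 : reeLam (chevG2.simple i) = chevG2.graphExp 3 i (swE i) := h3
    rw [hch, ← h6]
    show xG TG2.checks _ _ = xG TG2.checks _ _
    rw [h5]
  · obtain ⟨h1, h2, h3, h4⟩ := g2_x_tab i
    rw [sigE_x]
    apply Subtype.ext
    have h5 : reeBar (negF chevG2 (chevG2.simple i)) = negF chevG2 (chevG2.simple (swE i)) := h2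
    have h6 : reeLam (negF chevG2 (chevG2.simple i)) = chevG2.graphExp 3 i (swE i) := h4
    rw [hch, ← h6]
    show xG TG2.checks _ _ = xG TG2.checks _ _
    rw [h5]

lemma sw_char {σ : Fin 2 → F ≃+* F} (R : ∀ (i j : Fin 2) (c : F), c ≠ 0 → (σ i c) ^ (chevG2.cartan (swP i) (chevG2.simple (swP j))) = (σ j c) ^ (chevG2.cartan i (chevG2.simple j)))
    (hq : 3 ≤ Fintype.card F) : (3 : F) = 0 := by
  have hs : ∀ c : F, σ 0 c = (σ 1 c) ^ 3 := by
    intro c
    by_cases hc : c = 0
    · subst hc
      simp
    · have h : (σ 1 c) ^ (chevG2.cartan 0 (chevG2.simple 1)) = (σ 0 c) ^ (chevG2.cartan 1 (chevG2.simple 0)) := R 1 0 c hc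
      rw [g2_c01, g2_c10, zpow_neg_one] at h
      have h4 : (σ 1 c) ^ (-3 : ℤ) = ((σ 1 c) ^ 3)⁻¹ := by
        rw [zpow_neg, zpow_ofNat]
      rw [h4] at h
      exact (inv_injective h).symm
  have hadd : ∀ u v : F, (u + v) ^ 3 = u ^ 3 + v ^ 3 := by
    intro u v
    obtain ⟨a, rfl⟩ := (σ 1).surjective u
    obtain ⟨b, rfl⟩ := (σ 1).surjective v
    rw [← map_add, ← hs, ← hs, ← hs, map_add]
  have h1 := hadd 1 1
  have h2 : (2 : F) * 3 = 0 := by linear_combination h1
  rcases mul_eq_zero.mp h2 with h3 | h3
  · exfalso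
    have h6 : (3 : F) = 1 := by linear_combination h3
    have key : ∀ u : F, u = 0 ∨ u = 1 := by
      intro u
      have h4 := hadd u 1
      have h5 : (u * (u + 1)) * 3 = 0 := by linear_combination h4
      rw [h6, mul_one] at h5
      rcases mul_eq_zero.mp h5 with h7 | h7
      · exact Or.inl h7
      · right
        have : u = -1 := by linear_combination h7
        rw [this]
        linear_combination -h3
    classical
    have h8 : (Finset.univ : Finset F) ⊆ {0, 1} := by
      intro u _
      rcases key u with h | h <;> simp [h]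
    have h9 := Finset.card_le_card h8
    have h10 : ({0, 1} : Finset F).card ≤ 2 := Finset.card_insert_le _ _
    rw [Finset.card_univ] at h9
    omega
  · exact h3

theorem outG2 (p f : ℕ) [hp : Fact p.Prime] [hc : CharP F p] (hF : Fintype.card F = p ^ f) (hq : 3 ≤ p ^ f) :
    Nat.card (Cfsg.Out ↥(chevG2.group F)) = (if p = 3 then 2 * f else f) := by
  have hD : chevG2 ∈ [chevG2, chevB2, chevD4, chevF4, chevE6, chevE7, chevE8] := by simp
  have hadd : ∀ r, chevG2.nroots / 2 ≤ r → r < chevG2.nroots → addRow chevG2 TG2.T r = true := fun r h0 hr => segAll_spec addG2 r h0 hr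
  have h1 := out_count (F := F) TG2.checks TG2.checks2 TG2.checks3 tabG2 hD hadd (by decide)
  have hcases : ∀ π : Equiv.Perm (Fin chevG2.rank), π = 1 ∨ π = swE := perm2_cases
  have hc' : Nat.card (Gam (D := chevG2) TG2.checks F) = if p = 3 then 2 else 1 := by
    by_cases hp3 : p = 3
    · subst hp3
      have e : Gam (D := chevG2) TG2.checks F = {1, swE} := by
        ext π
        constructor
        · intro _
          exact hcases π
        · rintro (h | h)
          · have e1 : π = 1 := h
            rw [e1]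
            exact one_mem_Gam _
          · have e1 : π = swE := h
            rw [e1]
            exact ⟨_, g2_form⟩
      rw [e, Nat.card_coe_set_eq, Set.ncard_pair, if_pos rfl]
      decide
    · have e : Gam (D := chevG2) TG2.checks F = {1} := by
        ext π
        constructor
        · intro hπ
          rcases hcases π with h | h
          · exact h
          · exfalso
            subst h
            obtain ⟨σ, -, h2⟩ := gam_data TG2.checks TG2.checks2 TG2.checks3 tabG2 hadd hπ
            have h3 := sw_char h2 (by rw [hF]; exact hq)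
            have h4 : (p : ℕ) ∣ 3 := (CharP.cast_eq_zero_iff F p 3).mp (by exact_mod_cast h3)
            exact hp3 ((Nat.prime_dvd_prime_iff_eq hp.out Nat.prime_three).mp h4)
        · intro h
          have e1 : π = 1 := h
          rw [e1]
          exact one_mem_Gam _
      rw [e, if_neg hp3]
      simp
  rw [hc', card_ring_aut hp.out hF (f_pos hp.out hF)] at h1
  have h2 := S1035_gen (F := F) rfl (chevG2, 1) (by simp)
  simp only [one_mul] at h2
  rw [h2] at h1
  have h3 : 0 < (Fintype.card F - 1) ^ chevG2.rank := pow_pos q_sub_pos _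
  rw [mul_comm] at h1
  have h4 := Nat.eq_of_mul_eq_mul_left h3 h1
  rw [h4]
  split_ifs <;> simp

end

end Cfsg.Agent.H04.AutT
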