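import Cfsg.Agent.Lib.H04.Tw.TDefs
import Cfsg.Agent.Lib.H04.Tw.BNT
import Cfsg.Agent.Lib.H04.Chev.Tab.D4
import Cfsg.Agent.Lib.H04.Chev.Tab.D4_all3
import Cfsg.Agent.Lib.H04.Chev.Tab.D4_all2

/-! Generated: an involutory graph map of type D4. -/

set_option autoImplicit false
set_option maxRecDepth 100000
set_option Elab.async false

open Cfsg.Lie Cfsg.Agent.H04.Chev Cfsg.Agent.H04.Tw
open Cfsg.Agent.H04.Chev.TD4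

namespace Cfsg.Agent.H04.AutT.TD4I

/-- the graph map -/
noncomputable def G : GT := ⟨NT.nd (NT.nd (NT.nd (NT.nd (NT.nd (NT.lf 0x0) (NT.lf 0x13)) (NT.nd (NT.lf 0x8) (NT.lf 0x1a))) (NT.nd (NT.nd (NT.lf 0x7) (NT.lf 0x11)) (NT.nd (NT.lf 0xc) (NT.lf 0x0)))) (NT.nd (NT.nd (NT.nd (NT.lf 0x2) (NT.lf 0xd)) (NT.nd (NT.lf 0x5) (NT.lf 0x18))) (NT.nd (NT.nd (NT.lf 0x3) (NT.lf 0x16)) (NT.nd (NT.lf 0xe) (NT.lf 0x0))))) (NT.nd (NT.nd (NT.nd (NT.nd (NT.lf 0x1) (NT.lf 0x14)) (NT.nd (NT.lf 0x9) (NT.lf 0x19))) (NT.nd (NT.nd (NT.lf 0xa) (NT.lf 0x15)) (NT.nd (NT.lf 0x12) (NT.lf 0x0)))) (NT.nd (NT.nd (NT.nd (NT.lf 0x6) (NT.lf 0x10)) (NT.nd (NT.lf 0xb) (NT.lf 0x1b))) (NT.nd (NT.nd (NT.lf 0x4) (NT.lf 0x17)) (NT.nd (NT.lf 0xf) (NT.lf 0x0))))), NT.nd (NT.nd (NT.nd (NT.nd (NT.nd (NT.lf 0x0) (NT.lf 0x1)) (NT.nd (NT.lf 0x0) (NT.lf 0x0)))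 (NT.nd (NT.nd (NT.lf 0x1) (NT.lf 0x1)) (NT.nd (NT.lf 0x0) (NT.lf 0x0)))) (NT.nd (NT.nd (NT.nd (NT.lf 0x0) (NT.lf 0x0)) (NT.nd (NT.lf 0x0) (NT.lf 0x0))) (NT.nd (NT.nd (NT.lf 0x1) (NT.lf 0x0)) (NT.nd (NT.lf 0x0) (NT.lf 0x0))))) (NT.nd (NT.nd (NT.nd (NT.nd (NT.lf 0x0) (NT.lf 0x1)) (NT.nd (NT.lf 0x0) (NT.lf 0x0))) (NT.nd (NT.nd (NT.lf 0x0) (NT.lf 0x0)) (NT.nd (NT.lf 0x0) (NT.lf 0x0)))) (NT.nd (NT.nd (NT.nd (NT.lf 0x1) (NT.lf 0x1)) (NT.nd (NT.lf 0x0) (NT.lf 0x0))) (NT.nd (NT.nd (NT.lf 0x1) (NT.lf 0x0)) (NT.nd (NT.lf 0x0) (NT.lf 0x0)))))⟩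

theorem gm0 : segAll 0 24 (graphCheckAt chevD4 T G) = true := by decide +kernel

theorem gperm : graphCheckPerm chevD4 G 1 = true := by decide +kernel
theorem grow : allRange chevD4.nroots (twRow chevD4 T G) = true := by decide +kernel

theorem twT : TwT chevD4 T G 1 := by
  refine TwT_of ?_ gperm grow
  intro r hr
  have hn : chevD4.nroots = 24 := rfl
  rw [hn] at hr
  have hc : (0 ≤ r ∧ r < 0 + 24) := by omega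
  rcases hc with ⟨h1, h2⟩
  · exact segAll_spec gm0 r h1 h2

/-- the permutation -/
def iota : Equiv.Perm (Fin 4) := ⟨![2, 1, 0, 3], ![2, 1, 0, 3], by decide, by decide⟩

theorem sim : ∀ i : Fin 4, G.bar (chevD4.simple i) = chevD4.simple (iota i) ∧ G.neg (chevD4.simple i) = false ∧ G.bar (negF chevD4 (chevD4.simple i)) = negF chevD4 (chevD4.simple (iota i)) ∧ G.neg (negF chevD4 (chevD4.simple i)) = false := by decide +kernel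

end Cfsg.Agent.H04.AutT.TD4I
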