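import Cfsg.Agent.Lib.H04.Aut.Tab

/-!
# The type by type conclusions
-/

set_option autoImplicit false
set_option maxRecDepth 100000
set_option linter.style.longLine false
set_option linter.unusedSimpArgs false
set_option linter.unusedSectionVars false
set_option linter.unusedVariables false

open Cfsg.Lie Cfsg.Agent.H04.Chev

namespace Cfsg.Agent.H04.AutT

section Char
variable {F : Type*} [Field F]

lemma two_char (h2 : (2 : F) = 0) : ringChar F = 2 := by
  have h3 : ringChar F ∣ 2 := (ringChar.spec F 2).mp (by exact_mod_cast h2)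
  rcases (Nat.dvd_prime Nat.prime_two).mp h3 with h4 | h4
  · exact absurd h4 CharP.ringChar_ne_one
  · exact h4

lemma three_char (h2 : (3 : F) = 0) : ringChar F = 3 := by
  have h3 : ringChar F ∣ 3 := (ringChar.spec F 3).mp (by exact_mod_cast h2)
  rcases (Nat.dvd_prime Nat.prime_three).mp h3 with h4 | h4
  · exact absurd h4 CharP.ringChar_ne_one
  · exact h4

lemma pow_two_char (h : ∀ u v : F, (u + v) ^ 2 = u ^ 2 + v ^ 2) (u : F) : u ^ 2 = u ^ (ringChar F) := by
  have h1 := h 1 1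
  have h2 : (2 : F) = 0 := by linear_combination h1
  rw [two_char h2]

lemma pow_three_char (h : ∀ u v : F, (u + v) ^ 3 = u ^ 3 + v ^ 3) (u : F) : u ^ 3 = u ^ (ringChar F) := by
  have h1 := h 1 1
  have h2 : (2 : F) * 3 = 0 := by linear_combination h1
  rcases mul_eq_zero.mp h2 with h3 | h3
  · rw [two_char h3]
    have h4 := h u 1
    have h5 : (u ^ 2 + u) * 3 = 0 := by linear_combination h4
    have h6 : (3 : F) = 1 := by linear_combination h3
    rw [h6, mul_one] at h5
    have h7 : u ^ 2 = u := by linear_combination h5 - u * h3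
    have : u ^ 3 = u ^ 2 * u := by ring
    rw [this, h7, ← sq, h7]
  · rw [three_char h3]

end Char

section SL
variable {D : ChevalleyDatum} {F : Type*} [Field F]

lemma exp_self (c i : ℕ) : D.graphExp c i i = 1 := by
  unfold Cfsg.Lie.ChevalleyDatum.graphExp
  cases D.isLong (D.simple i) <;> simp

/-- connectivity check -/
def connChk (D : ChevalleyDatum) : List ℕ → List ℕ → Bool
  | _, [] => true
  | seen, x :: xs => (decide (x < D.rank)) && seen.any (fun j => decide (j < D.rank) && decide (x ≠ j) && decide (D.bonds x j = 1)) && connChk D (x :: seen) xs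

lemma connChk_spec {P : ℕ → Prop} (step : ∀ x j, x < D.rank → j < D.rank → x ≠ j → D.bonds x j = 1 → P j → P x) :
    ∀ (l seen : List ℕ), (∀ x ∈ seen, P x) → connChk D seen l = true → ∀ x ∈ l, P x := by
  intro l
  induction l with
  | nil => simp
  | cons y ys ih =>
    intro seen hs h
    simp only [connChk, Bool.and_eq_true, decide_eq_true_eq, List.any_eq_true] at h
    obtain ⟨⟨h1, j, hj, ⟨h2, h2'⟩, h3⟩, h4⟩ := h
    have hy : P y := step y j h1 h2 h2' h3 (hs j hj)
    intro x hx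
    rcases List.mem_cons.mp hx with rfl | hx
    · exact hy
    · refine ih (y :: seen) ?_ h4 x hx
      intro z hz
      rcases List.mem_cons.mp hz with rfl | hz
      · exact hy
      · exact hs z hz

/-- the simply laced table -/
structure SLTab (D : ChevalleyDatum) : Prop where
  pos : 0 < D.rank
  b01 : ∀ i, i < D.rank → ∀ j, j < D.rank → i ≠ j → D.bonds i j = 0 ∨ D.bonds i j = 1
  cart : ∀ i, i < D.rank → ∀ j, j < D.rank → i ≠ j → D.bonds i j = 1 → D.cartan i (D.simple j) = -1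
  long : ∀ i, i < D.rank → D.isLong (D.simple i) = false
  conn : ∃ ord : List ℕ, connChk D [0] ord = true ∧ ∀ i, i < D.rank → i = 0 ∨ i ∈ ord

theorem sl_final (S : SLTab D) (π : Equiv.Perm (Fin D.rank)) (σ : Fin D.rank → F ≃+* F)
    (hb : ∀ i j : Fin D.rank, i ≠ j → (D.bonds i j = 0 ↔ D.bonds (π i) (π j) = 0))
    (R : ∀ (i j : Fin D.rank) (c : F), c ≠ 0 → (σ i c) ^ (D.cartan (π i) (D.simple (π j))) = (σ j c) ^ (D.cartan i (D.simple j))) :
    D.IsDiagramSymmetry π ∧ ∃ τ : F ≃+* F, ∀ (i : Fin D.rank) (t : F), σ i t = (τ t) ^ D.graphExp (ringChar F) i (π i) := by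
  have hne : ∀ i j : Fin D.rank, i ≠ j → ((π i : Fin D.rank) : ℕ) ≠ π j := fun i j hij e => hij (π.injective (Fin.ext e))
  have hsym : D.IsDiagramSymmetry π := by
    intro i j hij
    have hij' : (i : ℕ) ≠ j := fun e => hij (Fin.ext e)
    rcases S.b01 i i.2 j j.2 hij' with h | h
    · rw [h]
      exact (hb i j hij).mp h
    · rcases S.b01 (π i) (π i).2 (π j) (π j).2 (hne i j hij) with h' | h'
      · rw [(hb i j hij).mpr h'] at h
        norm_num at h
      · rw [h, h']
  refine ⟨hsym, ?_⟩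
  have hedge : ∀ i j : Fin D.rank, i ≠ j → D.bonds i j = 1 → σ i = σ j := by
    intro i j hij h1
    have hij' : (i : ℕ) ≠ j := fun e => hij (Fin.ext e)
    have h2 : D.bonds (π i) (π j) = 1 := by rw [hsym i j hij, h1]
    have c1 := S.cart i i.2 j j.2 hij' h1
    have c2 := S.cart (π i) (π i).2 (π j) (π j).2 (hne i j hij) h2
    apply RingEquiv.ext
    intro c
    by_cases hc : c = 0
    · subst hc
      simp
    · have := R i j c hc
      rw [c1, c2, zpow_neg_one, zpow_neg_one] at this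
      exact inv_injective this
  obtain ⟨ord, h1, h2⟩ := S.conn
  let i₀ : Fin D.rank := ⟨0, S.pos⟩
  let P : ℕ → Prop := fun x => ∃ h : x < D.rank, σ ⟨x, h⟩ = σ i₀
  have hP : ∀ x ∈ ord, P x := by
    refine connChk_spec (D := D) ?_ ord [0] ?_ h1
    · rintro x j hx hj hxj hb1 ⟨_, hj2⟩
      refine ⟨hx, ?_⟩
      rw [← hj2]
      apply hedge
      · intro e
        exact hxj (congrArg Fin.val e)
      · exact hb1
    · intro x hx
      have e : x = 0 := by simpa using hx
      subst e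
      exact ⟨S.pos, rfl⟩
  refine ⟨σ i₀, fun i t => ?_⟩
  have e1 : D.graphExp (ringChar F) i (π i) = 1 := by
    unfold Cfsg.Lie.ChevalleyDatum.graphExp
    rw [S.long _ (π i).2]
    simp
  rw [e1, pow_one]
  rcases h2 i i.2 with h3 | h3
  · have : i = i₀ := Fin.ext h3
    rw [this]
  · obtain ⟨_, h4⟩ := hP i h3
    exact congrArg (fun f : F ≃+* F => f t) h4

end SL

section NSL
variable {F : Type*} [Field F]

lemma eq_of_zpow_neg_one {σ σ' : F ≃+* F} (h : ∀ c : F, c ≠ 0 → (σ c) ^ (-1 : ℤ) = (σ' c) ^ (-1 : ℤ)) : σ = σ' := by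
  apply RingEquiv.ext
  intro c
  by_cases hc : c = 0
  · subst hc
    simp
  · have := h c hc
    rw [zpow_neg_one, zpow_neg_one] at this
    exact inv_injective this

/-- the square relation -/
lemma sq_rel {σ σ' : F ≃+* F} (h : ∀ c : F, c ≠ 0 → (σ c) ^ (-2 : ℤ) = (σ' c) ^ (-1 : ℤ)) (c : F) : σ' c = (σ c) ^ (ringChar F) := by
  have hs : ∀ c : F, σ' c = (σ c) ^ 2 := by
    intro c
    by_cases hc : c = 0
    · subst hc
      simp
    · have h1 := h c hc
      have h2 : σ c ≠ 0 := (map_ne_zero _).mpr hc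
      have h3 : σ' c ≠ 0 := (map_ne_zero _).mpr hc
      rw [zpow_neg_one] at h1
      have h4 : (σ c) ^ (-2 : ℤ) = ((σ c) ^ 2)⁻¹ := by
        rw [zpow_neg, zpow_ofNat]
      rw [h4] at h1
      exact (inv_injective h1).symm
  have hadd : ∀ u v : F, (u + v) ^ 2 = u ^ 2 + v ^ 2 := by
    intro u v
    obtain ⟨a, rfl⟩ := σ.surjective u
    obtain ⟨b, rfl⟩ := σ.surjective v
    rw [← map_add, ← hs, ← hs, ← hs, map_add]
  rw [hs, pow_two_char hadd]

/-- the cube relation -/
lemma cube_rel {σ σ' : F ≃+* F} (h : ∀ c : F, c ≠ 0 → (σ c) ^ (-3 : ℤ) = (σ' c) ^ (-1 : ℤ)) (c : F) : σ' c = (σ c) ^ (ringChar F) := by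
  have hs : ∀ c : F, σ' c = (σ c) ^ 3 := by
    intro c
    by_cases hc : c = 0
    · subst hc
      simp
    · have h1 := h c hc
      have h2 : σ c ≠ 0 := (map_ne_zero _).mpr hc
      have h3 : σ' c ≠ 0 := (map_ne_zero _).mpr hc
      rw [zpow_neg_one] at h1
      have h4 : (σ c) ^ (-3 : ℤ) = ((σ c) ^ 3)⁻¹ := by
        rw [zpow_neg, zpow_ofNat]
      rw [h4] at h1
      exact (inv_injective h1).symm
  have hadd : ∀ u v : F, (u + v) ^ 3 = u ^ 3 + v ^ 3 := by
    intro u v
    obtain ⟨a, rfl⟩ := σ.surjective u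
    obtain ⟨b, rfl⟩ := σ.surjective v
    rw [← map_add, ← hs, ← hs, ← hs, map_add]
  rw [hs, pow_three_char hadd]

lemma perm2_cases : ∀ π : Equiv.Perm (Fin 2), π = 1 ∨ π = Equiv.swap 0 1 := by decide

section g2
lemma g2_long0 : chevG2.isLong (chevG2.simple 0) = false := by decide +kernel
lemma g2_long1 : chevG2.isLong (chevG2.simple 1) = true := by decide +kernel
lemma g2_bonds : ∀ (π : Equiv.Perm (Fin 2)) (i j : Fin 2), i ≠ j → chevG2.bonds (π i) (π j) = chevG2.bonds i j := by decide +kernel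
lemma g2_c10 : chevG2.cartan 1 (chevG2.simple 0) = -1 := by decide +kernel
lemma g2_c01 : chevG2.cartan 0 (chevG2.simple 1) = -3 := by decide +kernel

theorem g2_final (π : Equiv.Perm (Fin 2)) (σ : Fin 2 → F ≃+* F)
    (R : ∀ (i j : Fin 2) (c : F), c ≠ 0 → (σ i c) ^ (chevG2.cartan (π i) (chevG2.simple (π j))) = (σ j c) ^ (chevG2.cartan i (chevG2.simple j))) :
    (∀ i j : Fin 2, i ≠ j → chevG2.bonds (π i) (π j) = chevG2.bonds i j) ∧ ∃ τ : F ≃+* F, ∀ (i : Fin 2) (t : F), σ i t = (τ t) ^ chevG2.graphExp (ringChar F) i (π i) := by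
  refine ⟨g2_bonds π, ?_⟩
  rcases perm2_cases π with rfl | rfl
  · have e : σ 1 = σ 0 := eq_of_zpow_neg_one (fun c hc => by
      have h : (σ 1 c) ^ (chevG2.cartan 1 (chevG2.simple 0)) = (σ 0 c) ^ (chevG2.cartan 1 (chevG2.simple 0)) := R 1 0 c hc
      rwa [g2_c10] at h)
    refine ⟨σ 0, fun i t => ?_⟩
    simp only [Equiv.Perm.coe_one, id_eq, exp_self, pow_one]
    fin_cases i
    · rfl
    · show σ 1 t = _
      rw [e]
  · refine ⟨σ 1, fun i t => ?_⟩
    fin_cases i
    · show σ 0 t = (σ 1 t) ^ chevG2.graphExp (ringChar F) 0 1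
      have e1 : chevG2.graphExp (ringChar F) 0 1 = ringChar F := by
        unfold Cfsg.Lie.ChevalleyDatum.graphExp
        rw [g2_long0, g2_long1]
        simp
      rw [e1]
      apply cube_rel
      intro c hc
      have h : (σ 1 c) ^ (chevG2.cartan 0 (chevG2.simple 1)) = (σ 0 c) ^ (chevG2.cartan 1 (chevG2.simple 0)) := R 1 0 c hc
      rwa [g2_c01, g2_c10] at h
    · show σ 1 t = (σ 1 t) ^ chevG2.graphExp (ringChar F) 1 0
      have e1 : chevG2.graphExp (ringChar F) 1 0 = 1 := by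
        unfold Cfsg.Lie.ChevalleyDatum.graphExp
        rw [g2_long0, g2_long1]
        simp
      rw [e1, pow_one]
end g2

section b2
lemma b2_long0 : chevB2.isLong (chevB2.simple 0) = false := by decide +kernel
lemma b2_long1 : chevB2.isLong (chevB2.simple 1) = true := by decide +kernel
lemma b2_bonds : ∀ (π : Equiv.Perm (Fin 2)) (i j : Fin 2), i ≠ j → chevB2.bonds (π i) (π j) = chevB2.bonds i j := by decide +kernel
lemma b2_c10 : chevB2.cartan 1 (chevB2.simple 0) = -1 := by decide +kernel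
lemma b2_c01 : chevB2.cartan 0 (chevB2.simple 1) = -2 := by decide +kernel

theorem b2_final (π : Equiv.Perm (Fin 2)) (σ : Fin 2 → F ≃+* F)
    (R : ∀ (i j : Fin 2) (c : F), c ≠ 0 → (σ i c) ^ (chevB2.cartan (π i) (chevB2.simple (π j))) = (σ j c) ^ (chevB2.cartan i (chevB2.simple j))) :
    (∀ i j : Fin 2, i ≠ j → chevB2.bonds (π i) (π j) = chevB2.bonds i j) ∧ ∃ τ : F ≃+* F, ∀ (i : Fin 2) (t : F), σ i t = (τ t) ^ chevB2.graphExp (ringChar F) i (π i) := by
  refine ⟨b2_bonds π, ?_⟩
  rcases perm2_cases π with rfl | rfl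
  · have e : σ 1 = σ 0 := eq_of_zpow_neg_one (fun c hc => by
      have h : (σ 1 c) ^ (chevB2.cartan 1 (chevB2.simple 0)) = (σ 0 c) ^ (chevB2.cartan 1 (chevB2.simple 0)) := R 1 0 c hc
      rwa [b2_c10] at h)
    refine ⟨σ 0, fun i t => ?_⟩
    simp only [Equiv.Perm.coe_one, id_eq, exp_self, pow_one]
    fin_cases i
    · rfl
    · show σ 1 t = _
      rw [e]
  · refine ⟨σ 1, fun i t => ?_⟩
    fin_cases i
    · show σ 0 t = (σ 1 t) ^ chevB2.graphExp (ringChar F) 0 1
      have e1 : chevB2.graphExp (ringChar F) 0 1 = ringChar F := by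
        unfold Cfsg.Lie.ChevalleyDatum.graphExp
        rw [b2_long0, b2_long1]
        simp
      rw [e1]
      apply sq_rel
      intro c hc
      have h : (σ 1 c) ^ (chevB2.cartan 0 (chevB2.simple 1)) = (σ 0 c) ^ (chevB2.cartan 1 (chevB2.simple 0)) := R 1 0 c hc
      rwa [b2_c01, b2_c10] at h
    · show σ 1 t = (σ 1 t) ^ chevB2.graphExp (ringChar F) 1 0
      have e1 : chevB2.graphExp (ringChar F) 1 0 = 1 := by
        unfold Cfsg.Lie.ChevalleyDatum.graphExp
        rw [b2_long0, b2_long1]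
        simp
      rw [e1, pow_one]
end b2

section F4
/-- the reversal -/
def rev4 : Equiv.Perm (Fin 4) := ⟨![3, 2, 1, 0], ![3, 2, 1, 0], by decide, by decide⟩

lemma f4_cases : ∀ π : Equiv.Perm (Fin 4), (∀ i j : Fin 4, i ≠ j → (chevF4.bonds i j = 0 ↔ chevF4.bonds (π i) (π j) = 0)) → π = 1 ∨ π = rev4 := by decide +kernel
lemma f4_rev : ∀ i j : Fin 4, i ≠ j → chevF4.bonds (rev4 i) (rev4 j) = chevF4.bonds i j := by decide +kernel
lemma f4_long : chevF4.isLong (chevF4.simple 0) = false ∧ chevF4.isLong (chevF4.simple 1) = false ∧ chevF4.isLong (chevF4.simple 2) = true ∧ chevF4.isLong (chevF4.simple 3) = true := by decide +kernel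
lemma f4_c01 : chevF4.cartan 0 (chevF4.simple 1) = -1 := by decide +kernel
lemma f4_c10 : chevF4.cartan 1 (chevF4.simple 0) = -1 := by decide +kernel
lemma f4_c12 : chevF4.cartan 1 (chevF4.simple 2) = -2 := by decide +kernel
lemma f4_c21 : chevF4.cartan 2 (chevF4.simple 1) = -1 := by decide +kernel
lemma f4_c23 : chevF4.cartan 2 (chevF4.simple 3) = -1 := by decide +kernel
lemma f4_c32 : chevF4.cartan 3 (chevF4.simple 2) = -1 := by decide +kernel

theorem f4_final (π : Equiv.Perm (Fin 4)) (σ : Fin 4 → F ≃+* F)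
    (hb : ∀ i j : Fin 4, i ≠ j → (chevF4.bonds i j = 0 ↔ chevF4.bonds (π i) (π j) = 0))
    (R : ∀ (i j : Fin 4) (c : F), c ≠ 0 → (σ i c) ^ (chevF4.cartan (π i) (chevF4.simple (π j))) = (σ j c) ^ (chevF4.cartan i (chevF4.simple j))) :
    (∀ i j : Fin 4, i ≠ j → chevF4.bonds (π i) (π j) = chevF4.bonds i j) ∧ ∃ τ : F ≃+* F, ∀ (i : Fin 4) (t : F), σ i t = (τ t) ^ chevF4.graphExp (ringChar F) i (π i) := by
  obtain ⟨l0, l1, l2, l3⟩ := f4_long
  rcases f4_cases π hb with rfl | rfl
  · refine ⟨fun i j _ => rfl, ?_⟩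
    have e1 : σ 0 = σ 1 := eq_of_zpow_neg_one (fun c hc => by
      have h : (σ 0 c) ^ (chevF4.cartan 0 (chevF4.simple 1)) = (σ 1 c) ^ (chevF4.cartan 0 (chevF4.simple 1)) := R 0 1 c hc
      rwa [f4_c01] at h)
    have e2 : σ 2 = σ 1 := eq_of_zpow_neg_one (fun c hc => by
      have h : (σ 2 c) ^ (chevF4.cartan 2 (chevF4.simple 1)) = (σ 1 c) ^ (chevF4.cartan 2 (chevF4.simple 1)) := R 2 1 c hc
      rwa [f4_c21] at h)
    have e3 : σ 3 = σ 2 := eq_of_zpow_neg_one (fun c hc => by
      have h : (σ 3 c) ^ (chevF4.cartan 3 (chevF4.simple 2)) = (σ 2 c) ^ (chevF4.cartan 3 (chevF4.simple 2)) := R 3 2 c hc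
      rwa [f4_c32] at h)
    refine ⟨σ 1, fun i t => ?_⟩
    simp only [Equiv.Perm.coe_one, id_eq, exp_self, pow_one]
    fin_cases i
    · show σ 0 t = _
      rw [e1]
    · rfl
    · show σ 2 t = _
      rw [e2]
    · show σ 3 t = _
      rw [e3, e2]
  · refine ⟨f4_rev, ?_⟩
    have e1 : σ 0 = σ 1 := eq_of_zpow_neg_one (fun c hc => by
      have h : (σ 0 c) ^ (chevF4.cartan 3 (chevF4.simple 2)) = (σ 1 c) ^ (chevF4.cartan 0 (chevF4.simple 1)) := R 0 1 c hc
      rwa [f4_c32, f4_c01] at h)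
    have e3 : σ 3 = σ 2 := eq_of_zpow_neg_one (fun c hc => by
      have h : (σ 3 c) ^ (chevF4.cartan 0 (chevF4.simple 1)) = (σ 2 c) ^ (chevF4.cartan 3 (chevF4.simple 2)) := R 3 2 c hc
      rwa [f4_c01, f4_c32] at h)
    have e4 : ∀ t, σ 1 t = (σ 2 t) ^ (ringChar F) := by
      apply sq_rel
      intro c hc
      have h : (σ 2 c) ^ (chevF4.cartan 1 (chevF4.simple 2)) = (σ 1 c) ^ (chevF4.cartan 2 (chevF4.simple 1)) := R 2 1 c hc
      rwa [f4_c12, f4_c21] at h
    have x0 : chevF4.graphExp (ringChar F) 0 3 = ringChar F := by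
      unfold Cfsg.Lie.ChevalleyDatum.graphExp
      rw [l0, l3]
      simp
    have x1 : chevF4.graphExp (ringChar F) 1 2 = ringChar F := by
      unfold Cfsg.Lie.ChevalleyDatum.graphExp
      rw [l1, l2]
      simp
    have x2 : chevF4.graphExp (ringChar F) 2 1 = 1 := by
      unfold Cfsg.Lie.ChevalleyDatum.graphExp
      rw [l1, l2]
      simp
    have x3 : chevF4.graphExp (ringChar F) 3 0 = 1 := by
      unfold Cfsg.Lie.ChevalleyDatum.graphExp
      rw [l0, l3]
      simp
    refine ⟨σ 2, fun i t => ?_⟩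
    fin_cases i
    · show σ 0 t = (σ 2 t) ^ chevF4.graphExp (ringChar F) 0 3
      rw [x0, e1, e4]
    · show σ 1 t = (σ 2 t) ^ chevF4.graphExp (ringChar F) 1 2
      rw [x1, e4]
    · show σ 2 t = (σ 2 t) ^ chevF4.graphExp (ringChar F) 2 1
      rw [x2, pow_one]
    · show σ 3 t = (σ 2 t) ^ chevF4.graphExp (ringChar F) 3 0
      rw [x3, pow_one, e3]
end F4

end NSL

section SLT
theorem slD4 : SLTab chevD4 where
  pos := by decide +kernel
  b01 := by decide +kernel
  cart := by decide +kernel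
  long := by decide +kernel
  conn := ⟨[1, 2, 3], by decide +kernel, by decide +kernel⟩

theorem slE6 : SLTab chevE6 where
  pos := by decide +kernel
  b01 := by decide +kernel
  cart := by decide +kernel
  long := by decide +kernel
  conn := ⟨[2, 3, 1, 4, 5], by decide +kernel, by decide +kernel⟩

theorem slE7 : SLTab chevE7 where
  pos := by decide +kernel
  b01 := by decide +kernel
  cart := by decide +kernel
  long := by decide +kernel
  conn := ⟨[2, 3, 1, 4, 5, 6], by decide +kernel, by decide +kernel⟩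

theorem slE8 : SLTab chevE8 where
  pos := by decide +kernel
  b01 := by decide +kernel
  cart := by decide +kernel
  long := by decide +kernel
  conn := ⟨[2, 3, 1, 4, 5, 6, 7], by decide +kernel, by decide +kernel⟩

end SLT

/-- the conclusion for the seven types -/
theorem final_all {D : ChevalleyDatum} (hD : D ∈ [chevG2, chevB2, chevD4, chevF4, chevE6, chevE7, chevE8]) {F : Type*} [Field F]
    (π : Equiv.Perm (Fin D.rank)) (σ : Fin D.rank → F ≃+* F)
    (hb : ∀ i j : Fin D.rank, i ≠ j → (D.bonds i j = 0 ↔ D.bonds (π i) (π j) = 0))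
    (R : ∀ (i j : Fin D.rank) (c : F), c ≠ 0 → (σ i c) ^ (D.cartan (π i) (D.simple (π j))) = (σ j c) ^ (D.cartan i (D.simple j))) :
    D.IsDiagramSymmetry π ∧ ∃ τ : F ≃+* F, ∀ (i : Fin D.rank) (t : F), σ i t = (τ t) ^ D.graphExp (ringChar F) i (π i) := by
  simp only [List.mem_cons, List.not_mem_nil, or_false] at hD
  rcases hD with rfl | rfl | rfl | rfl | rfl | rfl | rfl
  · exact g2_final π σ R
  · exact b2_final π σ R
  · exact sl_final slD4 π σ hb R
  · exact f4_final π σ hb R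
  · exact sl_final slE6 π σ hb R
  · exact sl_final slE7 π σ hb R
  · exact sl_final slE8 π σ hb R

end Cfsg.Agent.H04.AutT
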