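import Cfsg.Agent.Lib.H04.Aut.Final
import Cfsg.Agent.Lib.H04.Chev.SylowU

/-!
# Automorphisms of the Chevalley groups over finite fields
-/

set_option autoImplicit false
set_option linter.style.longLine false
set_option linter.unusedSimpArgs false
set_option linter.unusedSectionVars false
set_option linter.unusedVariables false

open Cfsg.Lie Cfsg.Agent.H04.Chev

namespace Cfsg.Agent.H04.AutT

/-- the decomposition of an automorphism -/
theorem aut_decomp {F : Type*} [Field F] [Finite F] (D : ChevalleyDatum)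
    (hD : D ∈ [chevG2, chevB2, chevD4, chevF4, chevE6, chevE7, chevE8]) (θ : ↥(D.group F) ≃* ↥(D.group F)) :
    ∃ (x : ↥(D.group F)) (d g f : ↥(D.group F) ≃* ↥(D.group F)),
      D.IsDiagonalAut d ∧ D.IsGraphAut g ∧ D.IsFieldAut f ∧ ∀ y : ↥(D.group F), θ y = x * d (g (f y)) * x⁻¹ := by
  classical
  haveI := Fintype.ofFinite F
  obtain ⟨T, U, C, C2, C3, hadd, A⟩ := exists_tabs_aut hD
  obtain ⟨p, hp⟩ := CharP.exists F
  haveI hpp : Fact p.Prime := ⟨(CharP.char_is_prime_or_zero F p).resolve_right (fun h0 => by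
    subst h0
    exact CharP.char_ne_zero_of_finite F 0 rfl)⟩
  obtain ⟨P, hP⟩ := exists_sylow_U (F := F) p D hD
  obtain ⟨x, θ₂, hθ, hstd⟩ := exists_std C C2 C3 p P hP θ
  obtain ⟨π, σ, ψ₀, θ₃, hθ₂, hform⟩ := reduce C C2 C3 A hadd hstd
  let d := diagE (F := F) C C3 (fun i => tv U D ψ₀ (D.simple i))
  have hd : D.IsDiagonalAut d := diagE_isDiag C C3 hadd ψ₀
  have hb := bonds_transfer C C2 C3 A hform
  have R := torus_rel C C2 C3 hform
  obtain ⟨hsym, τ, hτ⟩ := final_all hD π σ hb R
  obtain ⟨f, hf⟩ := S1080_gen (F := F) C τ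
  refine ⟨x, d, f.symm.trans θ₃, f, hd, ⟨π, hsym, ?_⟩, ⟨τ, hf⟩, ?_⟩
  · intro y i t
    have hq := C.simple_lt i.1 i.2
    have hq' := C.simple_lt (π i).1 (π i).2
    have hneg : D.neg (D.simple i) = negF D (D.simple i) := C.neg _ hq
    have hneg' : D.neg (D.simple (π i)) = negF D (D.simple (π i)) := C.neg _ hq'
    constructor
    · intro hy
      let y' : ↥(D.group F) := ⟨xG C (D.simple i) (τ.symm t), xG_mem_group C hq _⟩
      have e1 : f y' = y := by
        apply Subtype.ext
        apply Units.ext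
        rw [hf y' _ _ hq (xG_val C _ _), hy]
        simp
      have e2 : (f.symm.trans θ₃) y = θ₃ y' := by
        rw [← e1]
        simp
      rw [e2, ← xG_val C, (hform y' i _).1 rfl, hτ]
      simp
    · intro hy
      rw [hneg] at hy
      let y' : ↥(D.group F) := ⟨xG C (negF D (D.simple i)) (τ.symm t), xG_mem_group C (negF_lt hq) _⟩
      have e1 : f y' = y := by
        apply Subtype.ext
        apply Units.ext
        rw [hf y' _ _ (negF_lt hq) (xG_val C _ _), hy]
        simp
      have e2 : (f.symm.trans θ₃) y = θ₃ y' := by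
        rw [← e1]
        simp
      rw [e2, hneg', ← xG_val C, (hform y' i _).2 rfl, hτ]
      simp
  · intro y
    rw [hθ, hθ₂]
    simp [d]

end Cfsg.Agent.H04.AutT
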