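import Cfsg.Agent.Lib.H04.Aut.CountG2
import Cfsg.Agent.Lib.H04.Aut.D4Inv
import Cfsg.Agent.Lib.H04.Res.D4Fin

/-!
# The structure of the outer automorphism group
-/

set_option autoImplicit false
set_option maxRecDepth 100000
set_option linter.style.longLine false
set_option linter.unusedSimpArgs false
set_option linter.unusedSectionVars false
set_option linter.unusedVariables false

open Cfsg.Lie Cfsg.Agent.H04.Chev
open scoped commutatorElement

namespace Cfsg.Agent.H04.AutT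

lemma ring_aut_cyclic {F : Type*} [Field F] [Finite F] : IsCyclic (F ≃+* F) := by
  obtain ⟨p, hp⟩ := CharP.exists F
  haveI hpp : Fact p.Prime := ⟨(CharP.char_is_prime_or_zero F p).resolve_right (fun h0 => by
    subst h0
    exact CharP.char_ne_zero_of_finite F 0 rfl)⟩
  letI : Algebra (ZMod p) F := ZMod.algebra F p
  have hc : IsCyclic (F ≃ₐ[ZMod p] F) := inferInstance
  have hfix : ∀ (σ : F ≃+* F) (r : ZMod p), σ (algebraMap (ZMod p) F r) = algebraMap (ZMod p) F r := by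
    intro σ r
    have := RingHom.ext_zmod (((σ : F →+* F)).comp (algebraMap (ZMod p) F)) (algebraMap (ZMod p) F)
    exact congrArg (fun φ : ZMod p →+* F => φ r) this
  let e1 : (F ≃+* F) ≃* (F ≃ₐ[ZMod p] F) :=
    { toFun := fun σ => AlgEquiv.ofRingEquiv (f := σ) (hfix σ)
      invFun := fun τ => τ.toRingEquiv
      left_inv := fun σ => by ext x; rfl
      right_inv := fun τ => by ext x; rfl
      map_mul' := fun σ τ => by ext x; rfl }
  exact isCyclic_of_surjective e1.symm e1.symm.surjective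

variable {D : ChevalleyDatum} {T : Tabs} {U : Tabs3}

section
variable (C : Checks D T) (C2 : Checks2 D T) (C3 : Checks3 D T U) (A : AutTab D T U)
variable {F : Type*} [Field F]

include C3 in
lemma aut_ext {θ θ' : ↥(D.group F) ≃* ↥(D.group F)}
    (h1 : ∀ (i : Fin D.rank) (t : F), θ (XE C (C.simple_lt i.1 i.2) t) = θ' (XE C (C.simple_lt i.1 i.2) t))
    (h2 : ∀ (i : Fin D.rank) (t : F), θ (XE C (negF_lt (C.simple_lt i.1 i.2)) t) = θ' (XE C (negF_lt (C.simple_lt i.1 i.2)) t)) : θ = θ' := by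
  apply MulEquiv.ext
  intro y
  refine hom_ext_fund C C3 θ.toMonoidHom θ'.toMonoidHom ?_ y
  intro y i t hi hy
  show θ y = θ' y
  have hq := C.simple_lt i hi
  rcases hy with hy | hy
  · have e : y = XE C hq t := Subtype.ext (eq_xG C hy)
    rw [e]
    exact h1 ⟨i, hi⟩ t
  · have hneg : D.neg (D.simple i) = negF D (D.simple i) := C.neg _ hq
    rw [hneg] at hy
    have e : y = XE C (negF_lt hq) t := Subtype.ext (eq_xG C hy)
    rw [e]
    exact h2 ⟨i, hi⟩ t

lemma extF_mul (ψ ψ' : Fin D.rank → Fˣ) : extF D (ψ * ψ') = extF D ψ * extF D ψ' := by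
  funext j
  by_cases h : j < D.rank <;> simp [extF, h]

lemma dA_mul (ψ ψ' : Fin D.rank → Fˣ) : dA C C3 (ψ * ψ') = dA C C3 ψ * dA C C3 ψ' := by
  apply aut_ext C C3
  · intro i t
    rw [dA_x, MulAut.mul_apply, dA_x, dA_x, extF_mul, tv_mul]
    congr 1
    simp [mul_assoc]
  · intro i t
    rw [dA_x, MulAut.mul_apply, dA_x, dA_x, extF_mul, tv_mul]
    congr 1
    simp [mul_assoc]

lemma dA_one : dA (F := F) C C3 1 = 1 := by
  apply aut_ext C C3
  · intro i t
    rw [dA_x, MulAut.one_apply]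
    have e : tv U D (extF D (1 : Fin D.rank → Fˣ)) (D.simple i) = 1 := by
      rw [tv_ext C3]
      rfl
    rw [e]
    simp
  · intro i t
    rw [dA_x, MulAut.one_apply, tv_neg C3 (C.simple_lt i.1 i.2)]
    have e : tv U D (extF D (1 : Fin D.rank → Fˣ)) (D.simple i) = 1 := by
      rw [tv_ext C3]
      rfl
    rw [e]
    simp

/-- the hom from characters -/
noncomputable def dH (C : Checks D T) (C3 : Checks3 D T U) (F : Type*) [Field F] : (Fin D.rank → Fˣ) →* MulAut ↥(D.group F) :=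
  MonoidHom.mk' (dA C C3) (dA_mul C C3)

include C3 in
lemma fA_mul (τ τ' : F ≃+* F) : fA C (τ * τ') = fA C τ * fA C τ' := by
  apply aut_ext C C3
  · intro i t
    rw [fA_x, MulAut.mul_apply, fA_x, fA_x]
    rfl
  · intro i t
    rw [fA_x, MulAut.mul_apply, fA_x, fA_x]
    rfl

/-- the hom from field automorphisms -/
noncomputable def fH (C : Checks D T) (C3 : Checks3 D T U) (F : Type*) [Field F] : (F ≃+* F) →* MulAut ↥(D.group F) :=
  MonoidHom.mk' (fA C) (fA_mul C C3)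

lemma fA_isField (τ : F ≃+* F) : D.IsFieldAut (fA C τ) := ⟨τ, Classical.choose_spec (S1080_gen (F := F) C τ)⟩

include C3 in
lemma eq_fA {φ : MulAut ↥(D.group F)} (h : D.IsFieldAut φ) : ∃ τ, φ = fA C τ := by
  obtain ⟨σ, hσ⟩ := h
  refine ⟨σ, aut_ext C C3 (fun i t => ?_) (fun i t => ?_)⟩
  · rw [fA_x]
    apply Subtype.ext
    apply Units.ext
    exact (hσ _ _ t (C.simple_lt i.1 i.2) (xG_val C _ _)).trans (xG_val C _ _).symm
  · rw [fA_x]
    apply Subtype.ext
    apply Units.ext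
    exact (hσ _ _ t (negF_lt (C.simple_lt i.1 i.2)) (xG_val C _ _)).trans (xG_val C _ _).symm

include C3 in
lemma eq_dA (hadd : ∀ r, D.nroots / 2 ≤ r → r < D.nroots → addRow D T r = true) {φ : MulAut ↥(D.group F)} (h : D.IsDiagonalAut φ) : ∃ ψ, φ = dA C C3 ψ := by
  obtain ⟨χ, hχ, hφ⟩ := h
  have key : ∀ {r : ℕ} (hr : r < D.nroots) (t : F), φ (XE C hr t) = dA C C3 (fun i => χ (D.simple i)) (XE C hr t) := by
    intro r hr t
    rw [dA_x]
    apply Subtype.ext
    apply Units.ext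
    refine (hφ _).trans ?_
    show D.charDiag F χ * ((xG C r t : GL D.Idx F) : Matrix D.Idx D.Idx F) * _ = _
    rw [xG_val, charDiag_conj C C3 hχ hadd hr]
    rw [tv_eq_of_rootChar C C3 hχ hadd r hr]
    have e : tv U D (extF D (fun i : Fin D.rank => χ (D.simple i))) r = tv U D (fun i => χ (D.simple i)) r := by
      unfold tv
      apply Finset.prod_congr rfl
      intro j hj
      have hj' := Finset.mem_range.mp hj
      simp [extF, hj']
    rw [e]
    exact (xG_val C _ _).symm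
  exact ⟨fun i => χ (D.simple i), aut_ext C C3 (fun i t => key _ t) (fun i t => key _ t)⟩

/-- the relation defining the permutation -/
def IsPi (C : Checks D T) (θ : ↥(D.group F) ≃* ↥(D.group F)) (π : Equiv.Perm (Fin D.rank)) : Prop :=
  ∀ (i : Fin D.rank) (t : F), ∃ s, θ (XE C (C.simple_lt i.1 i.2) t) = XE C (C.simple_lt (π i).1 (π i).2) s

include C2 C3 A in
lemma IsPi.unique {θ : ↥(D.group F) ≃* ↥(D.group F)} {π π' : Equiv.Perm (Fin D.rank)} (h : IsPi C θ π) (h' : IsPi C θ π') : π = π' := by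
  apply Equiv.ext
  intro i
  obtain ⟨s, hs⟩ := h i 1
  obtain ⟨s', hs'⟩ := h' i 1
  have e : xG C (D.simple (π i)) s = xG C (D.simple (π' i)) s' := by
    have := hs.symm.trans hs'
    exact congrArg Subtype.val this
  have hs0 : s ≠ 0 := by
    intro h0
    subst h0
    have e1 : XE C (C.simple_lt (π i).1 (π i).2) (0 : F) = 1 := Subtype.ext (xG_zero C _)
    rw [e1, map_eq_one_iff _ θ.injective] at hs
    have e2 := congrArg Subtype.val hs
    have e3 : xG C (D.simple i) (1 : F) = 1 := e2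
    have e4 := congrArg Units.val e3
    rw [xG_val, Units.val_one, x_eq_one_iff C C2 (C.simple_lt i.1 i.2)] at e4
    exact one_ne_zero e4
  have h3 := xG_root_inj (F := F) C C2 (C3.simple_pos _ (π i).2) (C.simple_lt _ (π i).2) (C3.simple_pos _ (π' i).2) (C.simple_lt _ (π' i).2) e hs0
  exact Fin.ext (A.simple_inj _ (π i).2 _ (π' i).2 h3)

lemma Xi_isPi (ψ : Fin D.rank → Fˣ) (π : Gam C F) (τ : F ≃+* F) : IsPi C (Xi C C3 ψ π τ) π.1 :=
  fun i t => ⟨_, Xi_x C C3 ψ π τ i t⟩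

lemma one_form : IsGForm (F := F) C (1 : Equiv.Perm (Fin D.rank)) (1 : MulAut ↥(D.group F)) := by
  refine ⟨⟨fun g => Iff.rfl, fun g => Iff.rfl⟩, fun i t => ?_, fun i t => ?_⟩
  · simp [exp_self]
  · simp [exp_self]

include C2 C3 A in
lemma exists_isPi [Finite F] (hD : D ∈ [chevG2, chevB2, chevD4, chevF4, chevE6, chevE7, chevE8])
    (hadd : ∀ r, D.nroots / 2 ≤ r → r < D.nroots → addRow D T r = true) (θ : ↥(stdG D F)) : ∃ π, IsPi C θ.1 π := by
  obtain ⟨ψ, π, τ, e⟩ := Xi_sur C C2 C3 A hD hadd θ.2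
  exact ⟨π.1, e ▸ Xi_isPi C C3 ψ π τ⟩

/-- the homomorphism to the permutations -/
noncomputable def piHom (C : Checks D T) (C2 : Checks2 D T) (C3 : Checks3 D T U) (A : AutTab D T U) [Finite F] (hD : D ∈ [chevG2, chevB2, chevD4, chevF4, chevE6, chevE7, chevE8])
    (hadd : ∀ r, D.nroots / 2 ≤ r → r < D.nroots → addRow D T r = true) : ↥(stdG D F) →* Equiv.Perm (Fin D.rank) :=
  MonoidHom.mk' (fun θ => Classical.choose (exists_isPi C C2 C3 A hD hadd θ)) (by
    intro a b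
    have ha := Classical.choose_spec (exists_isPi C C2 C3 A hD hadd a)
    have hb := Classical.choose_spec (exists_isPi C C2 C3 A hD hadd b)
    have hab := Classical.choose_spec (exists_isPi C C2 C3 A hD hadd (a * b))
    refine IsPi.unique C C2 C3 A hab ?_
    intro i t
    obtain ⟨s, hs⟩ := hb i t
    obtain ⟨s', hs'⟩ := ha ((Classical.choose (exists_isPi C C2 C3 A hD hadd b)) i) s
    refine ⟨s', ?_⟩
    show a.1 (b.1 _) = _
    rw [hs, hs']
    rfl)

lemma piHom_eq [Finite F] (hD : D ∈ [chevG2, chevB2, chevD4, chevF4, chevE6, chevE7, chevE8])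
    (hadd : ∀ r, D.nroots / 2 ≤ r → r < D.nroots → addRow D T r = true) (θ : ↥(stdG D F)) {π : Equiv.Perm (Fin D.rank)} (h : IsPi C θ.1 π) :
    piHom C C2 C3 A hD hadd θ = π :=
  IsPi.unique C C2 C3 A (Classical.choose_spec (exists_isPi C C2 C3 A hD hadd θ)) h

end

section Main
variable (C : Checks D T) (C2 : Checks2 D T) (C3 : Checks3 D T U) (A : AutTab D T U)
variable {F : Type*} [Field F] [Finite F] (hD : D ∈ [chevG2, chevB2, chevD4, chevF4, chevE6, chevE7, chevE8])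
  (hadd : ∀ r, D.nroots / 2 ≤ r → r < D.nroots → addRow D T r = true)

/-- the map to the outer automorphisms -/
def toOut (D : ChevalleyDatum) (F : Type*) [Field F] : ↥(stdG D F) →* Cfsg.Out ↥(D.group F) :=
  (QuotientGroup.mk' (Cfsg.Inn ↥(D.group F))).comp (stdG D F).subtype

lemma toOut_apply (s : ↥(stdG D F)) : toOut D F s = (s.1 : Cfsg.Out ↥(D.group F)) := rfl

include C C2 C3 hD in
lemma toOut_sur : Function.Surjective (toOut D F) := by
  intro x
  obtain ⟨θ, rfl⟩ := QuotientGroup.mk_surjective x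
  have h1 : θ ∈ ((stdG D F ⊔ Cfsg.Inn ↥(D.group F) : Subgroup (MulAut ↥(D.group F))) : Set (MulAut ↥(D.group F))) := by
    rw [stdG_sup C C2 C3 hD]
    trivial
  rw [Subgroup.mul_normal, Set.mem_mul] at h1
  obtain ⟨s, hs, n, hn, rfl⟩ := h1
  refine ⟨⟨s, hs⟩, ?_⟩
  rw [toOut_apply]
  exact (QuotientGroup.mk_mul_of_mem s hn).symm

include C2 C3 A in
lemma toOut_ker_le : (toOut D F).ker ≤ (piHom C C2 C3 A hD hadd).ker := by
  intro s hs
  rw [MonoidHom.mem_ker] at hs ⊢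
  have h1 : s.1 ∈ Cfsg.Inn ↥(D.group F) := (QuotientGroup.eq_one_iff _).mp hs
  obtain ⟨g, hg⟩ := h1
  have hg' : MulAut.conj g = s.1 := hg
  have hstd : Std (MulAut.conj g) := by
    rw [hg']
    exact s.2
  have hgH := (conj_std_iff C C2 C3 g).mp hstd
  have hgH' := hgH
  rw [diagonal_eq C C3] at hgH'
  obtain ⟨c, hc⟩ := mem_HT.mp hgH'
  apply piHom_eq
  intro i t
  refine ⟨((tv U D (capply D c) (D.simple i) : Fˣ) : F) * t, ?_⟩
  rw [← hg']
  apply Subtype.ext
  show g.1 * xG C (D.simple i) t * (g.1)⁻¹ = xG C (D.simple i) _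
  rw [hc]
  unfold hProd
  exact torusG_conj C C3 (C.simple_lt i.1 i.2) _ t

/-- the permutation of an outer automorphism -/
noncomputable def Om (C : Checks D T) (C2 : Checks2 D T) (C3 : Checks3 D T U) (A : AutTab D T U) {F : Type*} [Field F] [Finite F]
    (hD : D ∈ [chevG2, chevB2, chevD4, chevF4, chevE6, chevE7, chevE8])
    (hadd : ∀ r, D.nroots / 2 ≤ r → r < D.nroots → addRow D T r = true) : Cfsg.Out ↥(D.group F) →* Equiv.Perm (Fin D.rank) :=
  (MonoidHom.liftOfSurjective (toOut D F) (toOut_sur C C2 C3 hD)) ⟨piHom C C2 C3 A hD hadd, toOut_ker_le C C2 C3 A hD hadd⟩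

lemma Om_toOut (s : ↥(stdG D F)) : Om C C2 C3 A hD hadd (toOut D F s) = piHom C C2 C3 A hD hadd s :=
  MonoidHom.liftOfRightInverse_comp_apply _ _ _ _ _

include C2 C3 hadd in
/-- the standard form of a standard automorphism -/
lemma std_form {θ : MulAut ↥(D.group F)} (hθ : θ ∈ stdG D F) (A : AutTab D T U) :
    ∃ (π : Equiv.Perm (Fin D.rank)) (σ : Fin D.rank → F ≃+* F) (ψ₁ : Fin D.rank → Fˣ),
      (∀ (i : Fin D.rank) (t : F), θ (XE C (C.simple_lt i.1 i.2) t) = XE C (C.simple_lt (π i).1 (π i).2) ((ψ₁ (π i) : F) * σ i t)) ∧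
      (∀ (i : Fin D.rank) (t : F), θ (XE C (negF_lt (C.simple_lt i.1 i.2)) t) = XE C (negF_lt (C.simple_lt (π i).1 (π i).2)) (((ψ₁ (π i))⁻¹ : Fˣ) * σ i t)) := by
  obtain ⟨π, σ, ψ₀, θ₃, hθ₂, hform⟩ := reduce C C2 C3 A hadd hθ
  have hd := dA_eq_diagE (F := F) C C3 ψ₀
  refine ⟨π, σ, fun i => ψ₀ i, fun i t => ?_, fun i t => ?_⟩
  · rw [hθ₂, ← hd]
    have h1 : θ₃ (XE C (C.simple_lt i.1 i.2) t) = XE C (C.simple_lt (π i).1 (π i).2) (σ i t) := Subtype.ext ((hform _ i t).1 rfl)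
    rw [h1, dA_x, tv_ext C3]
  · rw [hθ₂, ← hd]
    have h1 : θ₃ (XE C (negF_lt (C.simple_lt i.1 i.2)) t) = XE C (negF_lt (C.simple_lt (π i).1 (π i).2)) (σ i t) := Subtype.ext ((hform _ i t).2 rfl)
    rw [h1, dA_x, tv_neg C3 (C.simple_lt (π i).1 (π i).2), tv_ext C3]

include C2 C3 hadd in
/-- standard automorphisms normalise the diagonal automorphisms -/
lemma conj_dA {θ : MulAut ↥(D.group F)} (hθ : θ ∈ stdG D F) (A : AutTab D T U) (ψ : Fin D.rank → Fˣ) :
    ∃ ψ', θ * dA C C3 ψ = dA C C3 ψ' * θ := by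
  obtain ⟨π, σ, ψ₁, h1, h2⟩ := std_form C C2 C3 hadd hθ A
  let ψ' : Fin D.rank → Fˣ := fun j => Units.map (σ (π.symm j) : F →* F) (ψ (π.symm j))
  have hψ' : ∀ i, ((ψ' (π i) : Fˣ) : F) = σ i (ψ i) := by
    intro i
    simp [ψ']
  refine ⟨ψ', aut_ext C C3 (fun i t => ?_) (fun i t => ?_)⟩
  · rw [MulAut.mul_apply, MulAut.mul_apply, dA_x, h1, h1, dA_x, tv_ext C3, tv_ext C3, map_mul, hψ']
    congr 1
    ring
  · rw [MulAut.mul_apply, MulAut.mul_apply, dA_x, h2, h2, dA_x, tv_neg C3 (C.simple_lt i.1 i.2), tv_neg C3 (C.simple_lt (π i).1 (π i).2), tv_ext C3, tv_ext C3, map_mul]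
    congr 1
    simp only [Units.val_inv_eq_inv_val, map_inv₀, hψ']
    ring

end Main

section Final2
variable {F : Type*} [Field F] [Finite F]

theorem out_struct (C : Checks D T) (C2 : Checks2 D T) (C3 : Checks3 D T U) (A : AutTab D T U)
    (hD : D ∈ [chevG2, chevB2, chevD4, chevF4, chevE6, chevE7, chevE8])
    (hadd : ∀ r, D.nroots / 2 ≤ r → r < D.nroots → addRow D T r = true)
    (hcases : Nat.card (Gam C F) = 1 ∨ Nat.card (Gam C F) = 2 ∨ (Nat.card (Gam C F) = 6 ∧ ∃ π₁ ∈ Gam C F, ∃ π₂ ∈ Gam C F, π₁ * π₂ ≠ π₂ * π₁))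
    (Dbar Fbar : Subgroup (Cfsg.Out ↥(D.group F)))
    (hDbar : Dbar = (Subgroup.closure {φ : MulAut ↥(D.group F) | D.IsDiagonalAut φ}).map (QuotientGroup.mk' (Cfsg.Inn ↥(D.group F))))
    (hFbar : Fbar = (Subgroup.closure {φ : MulAut ↥(D.group F) | D.IsFieldAut φ}).map (QuotientGroup.mk' (Cfsg.Inn ↥(D.group F)))) :
    Dbar.Normal ∧ IsMulCommutative ↥Dbar ∧ IsCyclic ↥Fbar ∧ (Dbar ⊔ Fbar).Normal ∧
      ((Dbar ⊔ Fbar).index = 1 ∨ (Dbar ⊔ Fbar).index = 2 ∨
        ((Dbar ⊔ Fbar).index = 6 ∧ ¬ commutator (Cfsg.Out ↥(D.group F)) ≤ Dbar ⊔ Fbar)) := by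
  let mk := QuotientGroup.mk' (Cfsg.Inn ↥(D.group F))
  have hmk : ∀ a : MulAut ↥(D.group F), mk a = (a : Cfsg.Out ↥(D.group F)) := fun a => rfl
  have hmemD : ∀ a ∈ Subgroup.closure {φ : MulAut ↥(D.group F) | D.IsDiagonalAut φ}, ∃ ψ, a = dA C C3 ψ := by
    intro a ha
    have hle : Subgroup.closure {φ : MulAut ↥(D.group F) | D.IsDiagonalAut φ} ≤ (dH C C3 F).range := by
      rw [Subgroup.closure_le]
      intro φ hφ
      obtain ⟨ψ, rfl⟩ := eq_dA C C3 hadd hφ
      exact ⟨ψ, rfl⟩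
    obtain ⟨ψ, rfl⟩ := hle ha
    exact ⟨ψ, rfl⟩
  have hmemF : ∀ a ∈ Subgroup.closure {φ : MulAut ↥(D.group F) | D.IsFieldAut φ}, ∃ τ, a = fA C τ := by
    intro a ha
    have hle : Subgroup.closure {φ : MulAut ↥(D.group F) | D.IsFieldAut φ} ≤ (fH C C3 F).range := by
      rw [Subgroup.closure_le]
      intro φ hφ
      obtain ⟨τ, rfl⟩ := eq_fA C C3 hφ
      exact ⟨τ, rfl⟩
    obtain ⟨τ, rfl⟩ := hle ha
    exact ⟨τ, rfl⟩
  have hdA : ∀ ψ, mk (dA C C3 ψ) ∈ Dbar := by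
    intro ψ
    rw [hDbar]
    exact ⟨_, Subgroup.subset_closure (diagE_isDiag C C3 hadd (extF D ψ)), rfl⟩
  have hfA : ∀ τ, mk (fA C τ) ∈ Fbar := by
    intro τ
    rw [hFbar]
    exact ⟨_, Subgroup.subset_closure (fA_isField C τ), rfl⟩
  have hDm : ∀ x ∈ Dbar, ∃ ψ, x = mk (dA C C3 ψ) := by
    intro x hx
    rw [hDbar] at hx
    obtain ⟨a, ha, rfl⟩ := hx
    obtain ⟨ψ, rfl⟩ := hmemD a ha
    exact ⟨ψ, rfl⟩
  have hFm : ∀ x ∈ Fbar, ∃ τ, x = mk (fA C τ) := by
    intro x hx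
    rw [hFbar] at hx
    obtain ⟨a, ha, rfl⟩ := hx
    obtain ⟨τ, rfl⟩ := hmemF a ha
    exact ⟨τ, rfl⟩
  have h1 : Dbar.Normal := by
    refine ⟨fun x hx g => ?_⟩
    obtain ⟨ψ, rfl⟩ := hDm x hx
    obtain ⟨s, rfl⟩ := toOut_sur C C2 C3 hD g
    obtain ⟨ψ', e⟩ := conj_dA C C2 C3 hadd s.2 A ψ
    have e1 : s.1 * dA C C3 ψ * s.1⁻¹ = dA C C3 ψ' := by
      rw [e]
      group
    have e2 : toOut D F s * mk (dA C C3 ψ) * (toOut D F s)⁻¹ = mk (s.1 * dA C C3 ψ * s.1⁻¹) := by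
      simp only [map_mul, map_inv]
      rfl
    rw [e2, e1]
    exact hdA ψ'
  have h2 : IsMulCommutative ↥Dbar := by
    refine ⟨⟨fun a b => Subtype.ext ?_⟩⟩
    obtain ⟨ψ, hψ⟩ := hDm a.1 a.2
    obtain ⟨ψ', hψ'⟩ := hDm b.1 b.2
    show a.1 * b.1 = b.1 * a.1
    rw [hψ, hψ', ← map_mul, ← map_mul, ← dA_mul, ← dA_mul, mul_comm]
  have h3 : IsCyclic ↥Fbar := by
    haveI : IsCyclic (F ≃+* F) := ring_aut_cyclic
    have e : Fbar = (mk.comp (fH C C3 F)).range := by
      apply le_antisymm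
      · intro x hx
        obtain ⟨τ, rfl⟩ := hFm x hx
        exact ⟨τ, rfl⟩
      · rintro _ ⟨τ, rfl⟩
        exact hfA τ
    rw [e]
    exact isCyclic_of_surjective (mk.comp (fH C C3 F)).rangeRestrict (MonoidHom.rangeRestrict_surjective _)
  have hker : Dbar ⊔ Fbar = (Om C C2 C3 A hD hadd).ker := by
    apply le_antisymm
    · refine sup_le (fun x hx => ?_) (fun x hx => ?_)
      · obtain ⟨ψ, rfl⟩ := hDm x hx
        rw [MonoidHom.mem_ker]
        have e : mk (dA C C3 ψ) = toOut D F ⟨dA C C3 ψ, dA_std C C3 ψ⟩ := rfl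
        rw [e, Om_toOut]
        apply piHom_eq
        intro i t
        refine ⟨_, dA_x C C3 ψ _ t⟩
      · obtain ⟨τ, rfl⟩ := hFm x hx
        rw [MonoidHom.mem_ker]
        have e : mk (fA C τ) = toOut D F ⟨fA C τ, fA_std C τ⟩ := rfl
        rw [e, Om_toOut]
        apply piHom_eq
        intro i t
        refine ⟨_, fA_x C τ _ t⟩
    · intro x hx
      rw [MonoidHom.mem_ker] at hx
      obtain ⟨s, rfl⟩ := toOut_sur C C2 C3 hD x
      rw [Om_toOut] at hx
      obtain ⟨ψ, π, τ, e⟩ := Xi_sur C C2 C3 A hD hadd s.2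
      have h4 : piHom C C2 C3 A hD hadd s = π.1 := piHom_eq C C2 C3 A hD hadd s (e ▸ Xi_isPi C C3 ψ π τ)
      rw [h4] at hx
      have h5 : IsGForm (F := F) C π.1 1 := by
        rw [hx]
        exact one_form C
      have h6 : gOf C π = 1 := IsGForm.unique C C3 (gOf_spec C π) h5
      have e2 : s.1 = dA C C3 ψ * fA C τ := by
        rw [← e]
        unfold Xi
        rw [h6, mul_one]
      have e3 : toOut D F s = mk (dA C C3 ψ) * mk (fA C τ) := by
        rw [← map_mul, ← e2]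
        rfl
      rw [e3]
      exact mul_mem (Subgroup.mem_sup_left (hdA ψ)) (Subgroup.mem_sup_right (hfA τ))
  have hrange : ∀ π : Equiv.Perm (Fin D.rank), π ∈ (Om (F := F) C C2 C3 A hD hadd).range ↔ π ∈ Gam C F := by
    intro π
    constructor
    · rintro ⟨x, rfl⟩
      obtain ⟨s, rfl⟩ := toOut_sur C C2 C3 hD x
      rw [Om_toOut]
      obtain ⟨ψ, π, τ, e⟩ := Xi_sur C C2 C3 A hD hadd s.2
      have h4 : piHom C C2 C3 A hD hadd s = π.1 := piHom_eq C C2 C3 A hD hadd s (e ▸ Xi_isPi C C3 ψ π τ)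
      rw [h4]
      exact π.2
    · intro hπ
      obtain ⟨g, hg⟩ := hπ
      refine ⟨toOut D F ⟨g, hg.std⟩, ?_⟩
      rw [Om_toOut]
      apply piHom_eq
      intro i t
      exact ⟨_, hg.pos i t⟩
  have hidx : (Dbar ⊔ Fbar).index = Nat.card (Gam C F) := by
    rw [hker, Subgroup.index_ker]
    exact Nat.card_congr (Equiv.subtypeEquivRight hrange)
  refine ⟨h1, h2, h3, ?_, ?_⟩
  · rw [hker]
    infer_instance
  · rw [hidx]
    rcases hcases with h | h | ⟨h, π₁, h₁, π₂, h₂, hne⟩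
    · exact Or.inl h
    · exact Or.inr (Or.inl h)
    · refine Or.inr (Or.inr ⟨h, ?_⟩)
      intro hle
      rw [hker] at hle
      obtain ⟨x, hx⟩ := (hrange π₁).mpr h₁
      obtain ⟨y, hy⟩ := (hrange π₂).mpr h₂
      have h7 : ⁅x, y⁆ ∈ commutator (Cfsg.Out ↥(D.group F)) := Subgroup.commutator_mem_commutator (Subgroup.mem_top x) (Subgroup.mem_top y)
      have h8 := hle h7
      rw [MonoidHom.mem_ker, map_commutatorElement, hx, hy] at h8
      exact hne (commutatorElement_eq_one_iff_mul_comm.mp h8)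

lemma gam_two (C : Checks D T) {π₀ : Equiv.Perm (Fin D.rank)} (h0 : (1 : Equiv.Perm (Fin D.rank)) ≠ π₀) (h : ∀ π ∈ Gam C F, π = 1 ∨ π = π₀) :
    Nat.card (Gam C F) = 1 ∨ Nat.card (Gam C F) = 2 := by
  by_cases hπ : π₀ ∈ Gam C F
  · right
    have e : Gam C F = {1, π₀} := by
      ext π
      constructor
      · intro hp
        exact h π hp
      · rintro (h1 | h1)
        · have e1 : π = 1 := h1
          rw [e1]
          exact one_mem_Gam C
        · have e1 : π = π₀ := h1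
          rw [e1]
          exact hπ
    rw [e, Nat.card_coe_set_eq, Set.ncard_pair h0]
  · left
    have e : Gam C F = {1} := by
      ext π
      constructor
      · intro hp
        rcases h π hp with h1 | h1
        · exact h1
        · exact absurd (h1 ▸ hp) hπ
      · intro h1
        have e1 : π = 1 := h1
        rw [e1]
        exact one_mem_Gam C
    rw [e]
    simp

end Final2

section D4
variable {F : Type*} [Field F] [Finite F]

open Cfsg.Agent.H04.Res.RD4 Cfsg.Agent.H04.Tw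

lemma d4_exp (c i : ℕ) (j : Fin chevD4.rank) : chevD4.graphExp c i j = 1 := exp_one c i j j.2

/-- a table condition giving a graph form -/
lemma d4_form {G : GT} {d : ℕ} (hg : TwT chevD4 TD4.T G d) (π : Equiv.Perm (Fin chevD4.rank))
    (hs : ∀ i : Fin chevD4.rank, G.bar (chevD4.simple i) = chevD4.simple (π i) ∧ G.neg (chevD4.simple i) = false ∧ G.bar (negF chevD4 (chevD4.simple i)) = negF chevD4 (chevD4.simple (π i)) ∧ G.neg (negF chevD4 (chevD4.simple i)) = false) :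
    IsGForm (F := F) TD4.checks π (graphAut TD4.checks hg) := by
  refine ⟨graphAut_std TD4.checks TD4.checks2 hg, fun i t => ?_, fun i t => ?_⟩
  · rw [d4_exp, pow_one]
    apply Subtype.ext
    refine (graph_conj TD4.checks hg (TD4.checks.simple_lt i.1 i.2) t).trans ?_
    obtain ⟨h1, h2, h3, h4⟩ := hs i
    rw [h1, h2]
    simp [sv, XE]
  · rw [d4_exp, pow_one]
    apply Subtype.ext
    refine (graph_conj TD4.checks hg (negF_lt (TD4.checks.simple_lt i.1 i.2)) t).trans ?_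
    obtain ⟨h1, h2, h3, h4⟩ := hs i
    rw [h3, h4]
    simp [sv, XE]

lemma form_mul {π π' : Equiv.Perm (Fin chevD4.rank)} {θ θ' : MulAut ↥(chevD4.group F)} (h : IsGForm (F := F) TD4.checks π θ) (h' : IsGForm (F := F) TD4.checks π' θ') :
    IsGForm (F := F) TD4.checks (π * π') (θ * θ') := by
  refine ⟨(stdG chevD4 F).mul_mem h.std h'.std, fun i t => ?_, fun i t => ?_⟩
  · rw [MulAut.mul_apply, h'.pos, d4_exp, pow_one, h.pos, d4_exp, pow_one, d4_exp, pow_one]
    rfl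
  · rw [MulAut.mul_apply, h'.neg, d4_exp, pow_one, h.neg, d4_exp, pow_one, d4_exp, pow_one]
    rfl

/-- the involution -/
abbrev iotE : Equiv.Perm (Fin chevD4.rank) := TD4I.iota

/-- the triality -/
abbrev rhoD : Equiv.Perm (Fin chevD4.rank) := rhoP

lemma rho_tab : ∀ i : Fin 4, TD4.G.bar (chevD4.simple i) = chevD4.simple (rhoP i) ∧ TD4.G.neg (chevD4.simple i) = false ∧ TD4.G.bar (negF chevD4 (chevD4.simple i)) = negF chevD4 (chevD4.simple (rhoP i)) ∧ TD4.G.neg (negF chevD4 (chevD4.simple i)) = false := by decide +kernel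

lemma d4_six : ∀ π : Equiv.Perm (Fin 4), (∀ i j : Fin 4, i ≠ j → chevD4.bonds (π i) (π j) = chevD4.bonds i j) →
    π = 1 ∨ π = TD4I.iota ∨ π = rhoP ∨ π = rhoP * rhoP ∨ π = rhoP * TD4I.iota ∨ π = rhoP * rhoP * TD4I.iota := by decide +kernel

/-- the six permutations -/
def d4S : Finset (Equiv.Perm (Fin chevD4.rank)) := {1, iotE, rhoD, rhoD * rhoD, rhoD * iotE, rhoD * rhoD * iotE}

lemma d4_card : d4S.card = 6 := by decide +kernel

lemma mem_d4S {π : Equiv.Perm (Fin chevD4.rank)} : π ∈ d4S ↔ π = 1 ∨ π = iotE ∨ π = rhoD ∨ π = rhoD * rhoD ∨ π = rhoD * iotE ∨ π = rhoD * rhoD * iotE := by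
  simp only [d4S, Finset.mem_insert, Finset.mem_singleton]

lemma d4_ne : rhoP * TD4I.iota ≠ TD4I.iota * rhoP := by decide +kernel

theorem gam_D4 : Nat.card (Gam (D := chevD4) TD4.checks F) = 6 ∧ ∃ π₁ ∈ Gam (D := chevD4) TD4.checks F, ∃ π₂ ∈ Gam (D := chevD4) TD4.checks F, π₁ * π₂ ≠ π₂ * π₁ := by
  classical
  have hD : chevD4 ∈ [chevG2, chevB2, chevD4, chevF4, chevE6, chevE7, chevE8] := by simp
  have hadd : ∀ r, chevD4.nroots / 2 ≤ r → r < chevD4.nroots → addRow chevD4 TD4.T r = true := fun r h0 hr => segAll_spec addD4 r h0 hr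
  have fi : IsGForm (F := F) TD4.checks iotE (graphAut TD4.checks TD4I.twT) := d4_form TD4I.twT iotE TD4I.sim
  have fr : IsGForm (F := F) TD4.checks rhoD (graphAut TD4.checks TD4.twT) := d4_form TD4.twT rhoD rho_tab
  have f1 : IsGForm (F := F) TD4.checks (1 : Equiv.Perm (Fin chevD4.rank)) (1 : MulAut ↥(chevD4.group F)) := one_form TD4.checks
  have hi : iotE ∈ Gam (D := chevD4) TD4.checks F := ⟨_, fi⟩
  have hr : rhoD ∈ Gam (D := chevD4) TD4.checks F := ⟨_, fr⟩
  have e : Gam (D := chevD4) TD4.checks F = (d4S : Set (Equiv.Perm (Fin chevD4.rank))) := by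
    ext π
    constructor
    · intro hπ
      have h1 := gam_sym TD4.checks TD4.checks2 TD4.checks3 tabD4 hD hadd hπ
      have h2 := d4_six π h1
      exact Finset.mem_coe.mpr (mem_d4S.mpr h2)
    · intro hπ
      have h2 := mem_d4S.mp (Finset.mem_coe.mp hπ)
      rcases h2 with h | h | h | h | h | h <;> subst h
      · exact ⟨_, f1⟩
      · exact hi
      · exact hr
      · exact ⟨_, form_mul fr fr⟩
      · exact ⟨_, form_mul fr fi⟩
      · exact ⟨_, form_mul (form_mul fr fr) fi⟩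
  refine ⟨?_, rhoD, hr, iotE, hi, d4_ne⟩
  rw [e, Nat.card_coe_set_eq, Set.ncard_coe_finset, d4_card]

end D4

lemma swP_ne : (1 : Equiv.Perm (Fin 2)) ≠ swP := by decide

/-- **S2159** -/
theorem outStruct {F : Type*} [Field F] [Finite F] (D : ChevalleyDatum) (hD : D ∈ [chevG2, chevB2, chevD4, chevF4, chevE6, chevE7, chevE8])
    (Dbar Fbar : Subgroup (Cfsg.Out ↥(D.group F)))
    (hDbar : Dbar = (Subgroup.closure {φ : MulAut ↥(D.group F) | D.IsDiagonalAut φ}).map (QuotientGroup.mk' (Cfsg.Inn ↥(D.group F))))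
    (hFbar : Fbar = (Subgroup.closure {φ : MulAut ↥(D.group F) | D.IsFieldAut φ}).map (QuotientGroup.mk' (Cfsg.Inn ↥(D.group F)))) :
    Dbar.Normal ∧ IsMulCommutative ↥Dbar ∧ IsCyclic ↥Fbar ∧ (Dbar ⊔ Fbar).Normal ∧
      ((Dbar ⊔ Fbar).index = 1 ∨ (Dbar ⊔ Fbar).index = 2 ∨
        ((Dbar ⊔ Fbar).index = 6 ∧ ¬ commutator (Cfsg.Out ↥(D.group F)) ≤ Dbar ⊔ Fbar)) := by
  have hD0 := hD
  simp only [List.mem_cons, List.not_mem_nil, or_false] at hD0
  rcases hD0 with rfl | rfl | rfl | rfl | rfl | rfl | rfl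
  · have hadd : ∀ r, chevG2.nroots / 2 ≤ r → r < chevG2.nroots → addRow chevG2 TG2.T r = true := fun r h0 hr => segAll_spec addG2 r h0 hr
    refine out_struct TG2.checks TG2.checks2 TG2.checks3 tabG2 hD hadd ?_ _ _ hDbar hFbar
    have h := gam_two (F := F) (D := chevG2) TG2.checks (π₀ := swE) swP_ne (fun π _ => perm2_cases π)
    rcases h with h | h
    · exact Or.inl h
    · exact Or.inr (Or.inl h)
  · have hadd : ∀ r, chevB2.nroots / 2 ≤ r → r < chevB2.nroots → addRow chevB2 TB2.T r = true := fun r h0 hr => segAll_spec addB2 r h0 hr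
    refine out_struct TB2.checks TB2.checks2 TB2.checks3 tabB2 hD hadd ?_ _ _ hDbar hFbar
    have h := gam_two (F := F) (D := chevB2) TB2.checks (π₀ := swP) swP_ne (fun π _ => perm2_cases π)
    rcases h with h | h
    · exact Or.inl h
    · exact Or.inr (Or.inl h)
  · have hadd : ∀ r, chevD4.nroots / 2 ≤ r → r < chevD4.nroots → addRow chevD4 TD4.T r = true := fun r h0 hr => segAll_spec addD4 r h0 hr
    exact out_struct TD4.checks TD4.checks2 TD4.checks3 tabD4 hD hadd (Or.inr (Or.inr gam_D4)) _ _ hDbar hFbar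
  · have hadd : ∀ r, chevF4.nroots / 2 ≤ r → r < chevF4.nroots → addRow chevF4 TF4.T r = true := fun r h0 hr => segAll_spec addF4 r h0 hr
    refine out_struct TF4.checks TF4.checks2 TF4.checks3 tabF4 hD hadd ?_ _ _ hDbar hFbar
    have h := gam_two (F := F) (D := chevF4) TF4.checks (π₀ := revE) (by decide) (fun π hπ => by
      obtain ⟨σ, h1, h2⟩ := gam_data TF4.checks TF4.checks2 TF4.checks3 tabF4 hadd hπ
      exact f4_cases π h1)
    rcases h with h | h
    · exact Or.inl h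
    · exact Or.inr (Or.inl h)
  · have hadd : ∀ r, chevE6.nroots / 2 ≤ r → r < chevE6.nroots → addRow chevE6 TE6.T r = true := fun r h0 hr => segAll_spec addE6 r h0 hr
    refine out_struct TE6.checks TE6.checks2 TE6.checks3 tabE6 hD hadd ?_ _ _ hDbar hFbar
    have h := gam_two (F := F) (D := chevE6) TE6.checks (π₀ := rhoE) (by decide) (fun π hπ => by
      have h1 := gam_sym TE6.checks TE6.checks2 TE6.checks3 tabE6 hD hadd hπ
      exact Cfsg.Agent.H04.Res.RE6.sym_cases π h1)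
    rcases h with h | h
    · exact Or.inl h
    · exact Or.inr (Or.inl h)
  · have hadd : ∀ r, chevE7.nroots / 2 ≤ r → r < chevE7.nroots → addRow chevE7 TE7.T r = true := fun r h0 hr => segAll_spec addE7 r h0 hr
    exact out_struct TE7.checks TE7.checks2 TE7.checks3 tabE7 hD hadd (Or.inl (gam_card_one TE7.checks TE7.checks2 TE7.checks3 tabE7 hD hadd e7_sym)) _ _ hDbar hFbar
  · have hadd : ∀ r, chevE8.nroots / 2 ≤ r → r < chevE8.nroots → addRow chevE8 TE8.T r = true := fun r h0 hr => segAll_spec addE8 r h0 hr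
    exact out_struct TE8.checks TE8.checks2 TE8.checks3 tabE8 hD hadd (Or.inl (gam_card_one TE8.checks TE8.checks2 TE8.checks3 tabE8 hD hadd e8_sym)) _ _ hDbar hFbar

end Cfsg.Agent.H04.AutT
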