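import Cfsg.Agent.Lib.H04.Aut.Reduce
import Cfsg.Agent.Lib.H04.Chev.RootCharTab

/-!
# Table checks for the automorphism theorem
-/

set_option autoImplicit false
set_option maxRecDepth 100000
set_option linter.style.longLine false

open Cfsg.Lie Cfsg.Agent.H04.Chev

namespace Cfsg.Agent.H04.AutT

theorem tabG2 : AutTab chevG2 TG2.T TG2.U where
  simple_inj := by decide +kernel
  star1 := by decide +kernel
  star2 := by decide +kernel
  free := by decide +kernel
  comm0 := by decide +kernel
  w_ne := by decide +kernel
  w_pos := by decide +kernel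

theorem tabB2 : AutTab chevB2 TB2.T TB2.U where
  simple_inj := by decide +kernel
  star1 := by decide +kernel
  star2 := by decide +kernel
  free := by decide +kernel
  comm0 := by decide +kernel
  w_ne := by decide +kernel
  w_pos := by decide +kernel

theorem tabD4 : AutTab chevD4 TD4.T TD4.U where
  simple_inj := by decide +kernel
  star1 := by decide +kernel
  star2 := by decide +kernel
  free := by decide +kernel
  comm0 := by decide +kernel
  w_ne := by decide +kernel
  w_pos := by decide +kernel

theorem tabF4 : AutTab chevF4 TF4.T TF4.U where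
  simple_inj := by decide +kernel
  star1 := by decide +kernel
  star2 := by decide +kernel
  free := by decide +kernel
  comm0 := by decide +kernel
  w_ne := by decide +kernel
  w_pos := by decide +kernel

theorem tabE6 : AutTab chevE6 TE6.T TE6.U where
  simple_inj := by decide +kernel
  star1 := by decide +kernel
  star2 := by decide +kernel
  free := by decide +kernel
  comm0 := by decide +kernel
  w_ne := by decide +kernel
  w_pos := by decide +kernel

theorem tabE7 : AutTab chevE7 TE7.T TE7.U where
  simple_inj := by decide +kernel
  star1 := by decide +kernel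
  star2 := by decide +kernel
  free := by decide +kernel
  comm0 := by decide +kernel
  w_ne := by decide +kernel
  w_pos := by decide +kernel

theorem tabE8 : AutTab chevE8 TE8.T TE8.U where
  simple_inj := by decide +kernel
  star1 := by decide +kernel
  star2 := by decide +kernel
  free := by decide +kernel
  comm0 := by decide +kernel
  w_ne := by decide +kernel
  w_pos := by decide +kernel


/-- The tables for each of the seven tabulated types. -/
theorem exists_tabs_aut {D : ChevalleyDatum}
    (hD : D ∈ [chevG2, chevB2, chevD4, chevF4, chevE6, chevE7, chevE8]) :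
    ∃ (T : Tabs) (U : Tabs3), Checks D T ∧ Checks2 D T ∧ Checks3 D T U ∧
      (∀ r, D.nroots / 2 ≤ r → r < D.nroots → addRow D T r = true) ∧ AutTab D T U := by
  simp only [List.mem_cons, List.not_mem_nil, or_false] at hD
  rcases hD with rfl | rfl | rfl | rfl | rfl | rfl | rfl
  · exact ⟨_, _, TG2.checks, TG2.checks2, TG2.checks3, fun r h0 hr => segAll_spec addG2 r h0 hr, tabG2⟩
  · exact ⟨_, _, TB2.checks, TB2.checks2, TB2.checks3, fun r h0 hr => segAll_spec addB2 r h0 hr, tabB2⟩
  · exact ⟨_, _, TD4.checks, TD4.checks2, TD4.checks3, fun r h0 hr => segAll_spec addD4 r h0 hr, tabD4⟩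
  · exact ⟨_, _, TF4.checks, TF4.checks2, TF4.checks3, fun r h0 hr => segAll_spec addF4 r h0 hr, tabF4⟩
  · exact ⟨_, _, TE6.checks, TE6.checks2, TE6.checks3, fun r h0 hr => segAll_spec addE6 r h0 hr, tabE6⟩
  · exact ⟨_, _, TE7.checks, TE7.checks2, TE7.checks3, fun r h0 hr => segAll_spec addE7 r h0 hr, tabE7⟩
  · exact ⟨_, _, TE8.checks, TE8.checks2, TE8.checks3, fun r h0 hr => segAll_spec addE8 r h0 hr, tabE8⟩

end Cfsg.Agent.H04.AutT
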